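import Mathlib
import Cfsg.Agent.Base
import Cfsg.Agent.Lib.Dim3.R3
import Cfsg.Agent.Lib.Asch.ExclL

/-!
Maximal subgroups of `SL₃` and `SU₃` of geometric type: what membership of a class forces on elements.
-/

set_option autoImplicit false

namespace H11.T3

open Matrix Cfsg Cfsg.Geo H10.Asch

theorem max_of {G : Type*} [Group G] [Finite G] {K H : Subgroup G} (h : H < K)
    (hM : ∀ M, IsMaximalIn K M → H ≤ M → M ≤ H) : IsMaximalIn K H := by
  refine ⟨h, fun M h1 h2 => ?_⟩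
  by_cases e : M = K
  · exact Or.inr e
  obtain ⟨N, hN1, hN2⟩ := Finite.exists_le_maximal (p := fun N => N < K) (lt_of_le_of_ne h2 e)
  refine Or.inl (le_antisymm (hN1.trans (hM N ⟨hN2.1, fun L h3 h4 => ?_⟩ (h1.trans hN1))) h1)
  by_cases e' : L = K
  · exact Or.inr e'
  · exact Or.inl (le_antisymm (hN2.2 (lt_of_le_of_ne h4 e') h3) h3)

theorem card_cjS {G : Type*} [Group G] (g : G) (L : Subgroup G) : Nat.card (cjS g L) = Nat.card L :=
  Subgroup.card_map_of_injective (MulAut.conj g).injective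

theorem le_of_le_cjS {G : Type*} [Group G] [Finite G] {g : G} {L : Subgroup G} (h : L ≤ cjS g L) :
    cjS g L ≤ L :=
  (Subgroup.eq_of_le_of_card_ge h (card_cjS g L).le).ge

theorem cjS_inf {G : Type*} [Group G] (g : G) (L L' : Subgroup G) : cjS g (L ⊓ L') = cjS g L ⊓ cjS g L' := by
  ext x; simp only [mem_cjS, Subgroup.mem_inf]

theorem le_cjS_inv {G : Type*} [Group G] {g : G} {L M : Subgroup G} (h : cjS g L ≤ M) : L ≤ cjS g⁻¹ M := by
  have := cjS_mono g⁻¹ h
  rwa [cjS_inv_cjS] at this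

theorem le_cjS_of_inv {G : Type*} [Group G] {g : G} {L M : Subgroup G} (h : cjS g⁻¹ M ≤ L) : M ≤ cjS g L := by
  have := cjS_mono g h
  rwa [cjS_cjS_inv] at this

variable {F : Type*} [Field F]

/-- `3 × 3` matrices -/
abbrev M3 (F : Type*) := Matrix (Fin 3) (Fin 3) F

/-- the general linear group -/
abbrev G3 (F : Type*) [Field F] := GL (Fin 3) F

/-- the special linear group -/
abbrev S3 (F : Type*) [Field F] : Subgroup (G3 F) := specialLinear (Fin 3) F

variable {H M : Subgroup (G3 F)} {m n : M3 F}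

/-- the matrix `m` is an element of `H` -/
def Hm (H : Subgroup (G3 F)) (m : M3 F) : Prop := ∃ g ∈ H, g.val = m

theorem Hm.mono (h : Hm H m) (hle : H ≤ M) : Hm M m := by
  obtain ⟨g, hg, e⟩ := h
  exact ⟨g, hle hg, e⟩

theorem Hm.mul (h : Hm H m) (h' : Hm H n) : Hm H (m * n) := by
  obtain ⟨g, hg, rfl⟩ := h
  obtain ⟨g', hg', rfl⟩ := h'
  exact ⟨_, H.mul_mem hg hg', rfl⟩

theorem Hm.det (h : Hm H m) (hle : H ≤ S3 F) : m.det = 1 := by
  obtain ⟨g, hg, rfl⟩ := h
  exact mem_specialLinear.1 (hle hg)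

theorem Hm.of (hd : m.det ≠ 0) (h : ∀ g : G3 F, g.val = m → g ∈ H) : Hm H m :=
  ⟨GeneralLinearGroup.mkOfDetNeZero m hd, h _ rfl, rfl⟩

theorem Hm.inf {K : Subgroup (G3 F)} (h : Hm H m) (h' : Hm K m) : Hm (H ⊓ K) m := by
  obtain ⟨g, hg, rfl⟩ := h
  obtain ⟨g', hg', e⟩ := h'
  exact ⟨g, ⟨hg, Units.ext e ▸ hg'⟩, rfl⟩

theorem hm_S3 (hd : m.det = 1) : Hm (S3 F) m :=
  Hm.of (by simp [hd]) fun g hg => mem_specialLinear.2 (by rw [hg, hd])

theorem cjS_le_S3 (B : G3 F) (h : M ≤ S3 F) : cjS B M ≤ S3 F :=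
  (cjS_mono B h).trans (H98.D3.cjS_SL B).le

theorem det_cj (B : G3 F) (m : M3 F) : (cj B m).det = m.det := by
  rw [cj_apply, det_mul, det_mul, mul_right_comm, ← det_mul, Units.mul_inv, det_one, one_mul]

theorem tr_adj_cj (B : G3 F) (m : M3 F) : (cj B m).adjugate.trace = m.adjugate.trace := by
  rw [cj_apply, adjugate_mul_distrib, adjugate_mul_distrib, trace_mul_comm, mul_assoc, ← adjugate_mul_distrib,
    Units.inv_mul, adjugate_one, mul_one]

theorem det_sub_smul (m : M3 F) (c : F) :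
    (m - c • (1 : M3 F)).det = m.det - c * m.adjugate.trace + c ^ 2 * m.trace - c ^ 3 := by
  simp [det_fin_three, adjugate_fin_three, trace_fin_three, one_apply]; ring

theorem tr_cube (m : M3 F) :
    (m * m * m).trace = m.trace ^ 3 - 3 * (m.trace * m.adjugate.trace) + 3 * m.det := by
  simp [det_fin_three, adjugate_fin_three, trace_fin_three, mul_apply, Fin.sum_univ_three]; ring

theorem adj_adj (hd : m.det = 1) : m.adjugate.adjugate = m := by
  rw [adjugate_adjugate _ (by simp), hd]; simp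

theorem det_adj (hd : m.det = 1) : m.adjugate.det = 1 := by
  rw [det_adjugate, hd, one_pow]

theorem cube_of_scalar {c : F} (hd : m.det = 1) (e : m = c • (1 : M3 F)) : c ^ 3 = 1 := by
  rw [e, det_smul, det_one, mul_one] at hd
  simpa using hd

/-! ### Irreducibility -/

theorem irr_cjS (B : G3 F) (h : Irr M) : Irr (cjS B M) := by
  intro W hW
  rcases h (W.comap (toLin' B.val)) (fun g hg v hv => by
    have := hW _ (conj_mem_cjS (h := B) hg) _ hv
    simp only [Submodule.mem_comap, toLin'_apply, Units.val_mul, ← mulVec_mulVec, gl_inv_mulVec] at this ⊢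
    exact this) with e | e
  · left
    refine (Submodule.eq_bot_iff _).2 fun v hv => ?_
    have := (Submodule.eq_bot_iff _).1 e ((B⁻¹).val *ᵥ v) (by simpa [gl_mulVec_inv] using hv)
    rw [← gl_mulVec_inv B v, this, mulVec_zero]
  · right
    refine eq_top_iff.2 fun v _ => ?_
    simpa [gl_mulVec_inv] using e.ge (Submodule.mem_top (x := (B⁻¹).val *ᵥ v))

theorem irr_of_cjS {B : G3 F} (h : Irr (cjS B M)) : Irr M := by
  have := irr_cjS B⁻¹ h
  rwa [cjS_inv_cjS] at this

theorem not_irr_of_le {W : Submodule F (Fin 3 → F)} (h1 : W ≠ ⊥) (h2 : W ≠ ⊤)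
    (h : M ≤ subspaceStabilizer W) : ¬ Irr M := fun hI =>
  (hI W fun g hg v hv => (mem_subspaceStabilizer.1 (h hg) v).1 hv).elim h1 h2

theorem Hm.mem (h : Hm H m) {W : Submodule F (Fin 3 → F)}
    (hW : ∀ h ∈ H, ∀ v ∈ W, (h : M3 F) *ᵥ v ∈ W) {v : Fin 3 → F} (hv : v ∈ W) : m *ᵥ v ∈ W := by
  obtain ⟨g, hg, rfl⟩ := h
  exact hW g hg v hv

theorem eq_top_of_single {W : Submodule F (Fin 3 → F)} (h : ∀ i, Pi.single i 1 ∈ W) : W = ⊤ :=
  eq_top_iff.2 fun v _ => by
    rw [H98.D3.eq_sum_single v]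
    exact W.add_mem (W.add_mem (W.smul_mem _ (h 0)) (W.smul_mem _ (h 1))) (W.smul_mem _ (h 2))

/-- the cyclic permutation matrix -/
def cyc (F : Type*) [Field F] : M3 F := !![0, 0, 1; 1, 0, 0; 0, 1, 0]

theorem det_cyc : (cyc F).det = 1 := by simp [cyc, det_fin_three]

/-- a diagonal matrix with distinct entries and a cyclic permutation matrix generate an irreducible group -/
theorem irr_aux {x y z : F} (h1 : x ≠ y) (h2 : x ≠ z) (h3 : y ≠ z) {W : Submodule F (Fin 3 → F)}
    (hd : ∀ v ∈ W, !![x, 0, 0; 0, y, 0; 0, 0, z] *ᵥ v ∈ W) (hc : ∀ v ∈ W, cyc F *ᵥ v ∈ W) : W = ⊥ ∨ W = ⊤ := by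
  refine or_iff_not_imp_left.2 fun h0 => ?_
  obtain ⟨w, hw, hw0⟩ := (Submodule.ne_bot_iff _).1 h0
  have step : ∀ (c : F), ∀ v ∈ W, ![(x - c) * v 0, (y - c) * v 1, (z - c) * v 2] ∈ W := fun c v hv => by
    convert W.sub_mem (hd _ hv) (W.smul_mem c hv) using 1
    ext i; fin_cases i <;> simp [mulVec, dotProduct, Fin.sum_univ_three] <;> ring
  have s0 : Pi.single 0 1 ∈ W → Pi.single 1 1 ∈ W := fun h => by
    convert hc _ h using 1; ext i; fin_cases i <;> simp [cyc]
  have s1 : Pi.single 1 1 ∈ W → Pi.single 2 1 ∈ W := fun h => by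
    convert hc _ h using 1; ext i; fin_cases i <;> simp [cyc]
  have s2 : Pi.single 2 1 ∈ W → Pi.single 0 1 ∈ W := fun h => by
    convert hc _ h using 1; ext i; fin_cases i <;> simp [cyc]
  have h0 : Pi.single 0 1 ∈ W := by
    by_cases e0 : w 0 = 0
    · by_cases e1 : w 1 = 0
      · have e2 : w 2 ≠ 0 := fun e2 => hw0 (by ext i; fin_cases i <;> simp [e0, e1, e2])
        refine s2 ?_
        convert W.smul_mem (w 2)⁻¹ hw using 1
        ext i; fin_cases i <;> simp [e0, e1, e2]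
      · refine s2 (s1 ?_)
        convert W.smul_mem ((y - z) * w 1)⁻¹ (step z _ hw) using 1
        have := sub_ne_zero.2 h3
        ext i; fin_cases i <;> simp [e0]
        field_simp
    · convert W.smul_mem ((x - y) * ((x - z) * w 0))⁻¹ (step y _ (step z _ hw)) using 1
      have := sub_ne_zero.2 h1
      have := sub_ne_zero.2 h2
      ext i; fin_cases i <;> simp
      field_simp
  exact eq_top_of_single fun i => by fin_cases i; exacts [h0, s0 h0, s1 (s0 h0)]

theorem irr_of_diag {x y z : F} (h1 : x ≠ y) (h2 : x ≠ z) (h3 : y ≠ z) (hd : Hm H !![x, 0, 0; 0, y, 0; 0, 0, z])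
    (hc : Hm H (cyc F)) : Irr H := fun _ hW => irr_aux h1 h2 h3 (fun _ => hd.mem hW) fun _ => hc.mem hW

/-! ### Class 2 -/

/-- the coordinate lines -/
def fr (B : M3 F) (i : Fin 3) : Submodule F (Fin 3 → F) := F ∙ (B *ᵥ Pi.single i 1)

/-- the monomial group -/
def Mon (F : Type*) [Field F] : Subgroup (G3 F) := decompositionStabilizer (fr (1 : M3 F))

theorem map_fr (g B : M3 F) (i : Fin 3) : (fr B i).map (toLin' g) = fr (g * B) i := by
  rw [fr, fr, Submodule.map_span, Set.image_singleton, toLin'_apply, mulVec_mulVec]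

theorem fr_eq_iff (B : G3 F) {m n : M3 F} {i j : Fin 3} : fr (B.val * m) i = fr (B.val * n) j ↔ fr m i = fr n j := by
  refine ⟨fun h => ?_, fun h => by rw [← map_fr, h, map_fr]⟩
  have := congrArg (Submodule.map (toLin' (B⁻¹).val)) h
  rwa [map_fr, map_fr, ← mul_assoc, ← mul_assoc, Units.inv_mul, one_mul, one_mul] at this

theorem stab_fr (B : G3 F) : decompositionStabilizer (fr B.val) = cjS B (Mon F) := by
  ext g
  rw [mem_cjS]
  refine exists_congr fun σ => forall_congr' fun i => ?_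
  rw [map_fr, map_fr, ← fr_eq_iff B (n := 1), mul_one, mul_one, Units.val_mul, Units.val_mul, ← mul_assoc,
    ← mul_assoc, Units.mul_inv, one_mul]

theorem hm_Mon (hd : m.det ≠ 0) (σ : Equiv.Perm (Fin 3)) (h : ∀ i j, i ≠ σ j → m i j = 0) : Hm (Mon F) m := by
  refine Hm.of hd fun g hg => ⟨σ, fun j => ?_⟩
  have e : g.val *ᵥ Pi.single j 1 = m (σ j) j • Pi.single (σ j) 1 := by
    ext i
    by_cases hi : i = σ j
    · simp [hi, hg]
    · simp [hi, hg, h i j hi]
  have h0 : m (σ j) j ≠ 0 := fun e0 =>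
    gl_mulVec_ne_zero g (v := Pi.single j 1) (by simp) (by rw [e, e0, zero_smul])
  rw [map_fr, mul_one, fr, fr, e, one_mulVec, Submodule.span_singleton_smul_eq (IsUnit.mk0 _ h0)]

theorem exists_fr {D : Fin 3 → Submodule F (Fin 3 → F)} (hD : IsMDecomposition 1 D) {v : Fin 3 → Fin 3 → F}
    (h1 : ∀ i, v i ∈ D i) (h2 : ∀ i, v i ≠ 0) : ∃ B : G3 F, B.val = (Matrix.of v)ᵀ ∧ D = fr B.val := by
  have e : ∀ i, (Matrix.of v)ᵀ *ᵥ Pi.single i 1 = v i := fun i => by ext j; simp
  have e' : ∀ i, D i = fr (Matrix.of v)ᵀ i := fun i => by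
    rw [fr, e]
    refine (Submodule.eq_of_le_of_finrank_eq ((Submodule.span_singleton_le_iff_mem _ _).2 (h1 i)) ?_).symm
    rw [finrank_span_singleton (h2 i), hD.finrank_eq]
  obtain ⟨B, hB⟩ := isUnit_of_im_eq_top (x := (Matrix.of v)ᵀ) (by
    rw [eq_top_iff, ← hD.iSup_eq_top, iSup_le_iff]
    intro i
    rw [e', fr, Submodule.span_singleton_le_iff_mem]
    exact mulVec_mem_im _ _)
  exact ⟨B, hB, funext fun i => by rw [hB, e']⟩

theorem nf2 {D : Fin 3 → Submodule F (Fin 3 → F)} (hD : IsMDecomposition 1 D) :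
    ∃ B : G3 F, decompositionStabilizer D = cjS B (Mon F) := by
  choose v h1 h2 using fun i => (Submodule.ne_bot_iff _).1 (IsMDecomposition.ne_bot hD i)
  obtain ⟨B, -, rfl⟩ := exists_fr hD h1 h2
  exact ⟨B, stab_fr B⟩

theorem isMDecomposition_fr : IsMDecomposition 1 (fr (1 : M3 F)) where
  two_le := by norm_num
  pos := one_pos
  finrank_eq i := by rw [fr, one_mulVec, finrank_span_singleton (by simp)]
  indep := by
    have := (Pi.basisFun F (Fin 3)).linearIndependent.iSupIndep_span_singleton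
    convert this using 2
    rw [fr, one_mulVec, Pi.basisFun_apply]
  iSup_eq_top := eq_top_of_single fun i =>
    Submodule.mem_iSup_of_mem i (by rw [fr, one_mulVec]; exact Submodule.mem_span_singleton_self _)

/-- the permutation action of a monomial group on its frame -/
structure Pi2 (M : Subgroup (G3 F)) (π : M →* Equiv.Perm (Fin 3)) : Prop where
  comm : ∀ g h, π g = 1 → π h = 1 → g * h = h * g
  unip : ∀ g, π g = 1 → (g.1.val - 1) ^ 3 = 0 → g = 1
  eig : ∀ g, π g = 1 → ∃ c : F, (g.1.val - c • 1).det = 0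
  scal : ∀ g, g.1 ∈ scalars (Fin 3) F → π g = 1

theorem exists_pi2 {B : G3 F} (h : M ≤ cjS B (Mon F)) : ∃ π, Pi2 M π := by
  let ι : M →* Mon F := ((MulAut.conj B⁻¹).toMonoidHom.comp M.subtype).codRestrict _ fun g => by
    simpa using mem_cjS.1 (h g.2)
  have hι : ∀ g : M, (ι g).1.val = cj B⁻¹ g.1.val := fun g => (cj_coe _ _).symm
  let π := (decompPerm isMDecomposition_fr).comp ι
  have key : ∀ g : M, π g = 1 → ∃ d, g.1.val = cj B (diagonal d) := fun g hg => by
    refine ⟨fun i => (ι g).1.val i i, ?_⟩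
    rw [← cj_cj_inv B g.1.val, ← hι]
    congr 1
    ext i j
    by_cases e : i = j
    · simp [e]
    have := mulVec_mem_decompPerm isMDecomposition_fr (ι g) (i := j) (v := Pi.single j 1)
      (by rw [fr, one_mulVec]; exact Submodule.mem_span_singleton_self _)
    change _ ∈ fr 1 (π g j) at this
    rw [hg, fr, one_mulVec, Submodule.mem_span_singleton] at this
    obtain ⟨c, hc⟩ := this
    simpa [e] using (congrFun hc i).symm
  refine ⟨π, fun g g' h1 h2 => ?_, fun g h1 h2 => ?_, fun g h1 => ?_, fun g h1 => ?_⟩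
  · obtain ⟨d, e⟩ := key g h1
    obtain ⟨d', e'⟩ := key g' h2
    refine Subtype.ext (Units.ext ?_)
    change g.1.val * g'.1.val = g'.1.val * g.1.val
    rw [e, e', ← map_mul, ← map_mul, (commute_diagonal d d').eq]
  · obtain ⟨d, e⟩ := key g h1
    rw [e, ← map_one (cj B), ← map_sub, ← map_pow, map_eq_zero_iff _ (cj B).injective, ← diagonal_one,
      diagonal_sub, diagonal_pow] at h2
    refine Subtype.ext (Units.ext ?_)
    change g.1.val = 1
    rw [e, ← map_one (cj B), ← diagonal_one]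
    congr 2
    funext i
    have := congrFun (congrFun h2 i) i
    simpa [sub_eq_zero] using this
  · obtain ⟨d, e⟩ := key g h1
    refine ⟨d 0, ?_⟩
    rw [e, ← map_one (cj B), ← map_smul, ← map_sub, det_cj]
    simp [det_fin_three]
  · obtain ⟨c, hc⟩ := (mem_scalars_iff _).1 h1
    refine Equiv.ext fun i => IsMDecomposition.injective (isMDecomposition_fr (F := F)) ?_
    refine (map_decompPerm isMDecomposition_fr (ι g) i).symm.trans ?_
    change (fr 1 i).map (toLin' (ι g).1.val) = fr 1 i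
    rw [hι, show g.1.val = _ from hc, map_smul, map_one, map_fr, mul_one, fr, fr, smul_mulVec,
      Submodule.span_singleton_smul_eq (IsUnit.mk0 _ c.ne_zero)]

/-! ### Class 3 -/

section three

variable {K : Subalgebra F (M3 F)}

theorem fld_scalar (hK : IsFieldSubalgebra 3 K) (hm : m ∈ K) {c : F} (h : (m - c • 1).det = 0) :
    m = c • (1 : M3 F) := by
  by_contra hne
  obtain ⟨y, -, hy⟩ := hK.inv _ (K.sub_mem hm (K.smul_mem K.one_mem c)) (sub_ne_zero.2 hne)
  have := congrArg det hy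
  rw [det_mul, h, zero_mul, det_one] at this
  exact zero_ne_one this

theorem fld_cent (hK : IsFieldSubalgebra 3 K) (h : ∀ k ∈ K, m * k = k * m) : m ∈ K := by
  have hK' : IsFieldSubalgebra (Fintype.card (Fin 3)) K := hK
  have hv : (Pi.single 0 1 : Fin 3 → F) ≠ 0 := by simp
  obtain ⟨k, hk, e⟩ := IsFieldSubalgebra.exists_mulVec_eq hK' hv (m *ᵥ Pi.single 0 1)
  rwa [show m = k from ext_mulVec fun w => by
    obtain ⟨l, hl, rfl⟩ := IsFieldSubalgebra.exists_mulVec_eq hK' hv w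
    rw [mulVec_mulVec, h l hl, ← mulVec_mulVec, ← e, mulVec_mulVec, mulVec_mulVec, hK.comm _ hl _ hk]]

theorem cube_mem [Finite F] (hK : IsFieldSubalgebra 3 K) {g : G3 F} (hg : g ∈ subalgebraNormalizer K) :
    g.val ^ 3 ∈ K := by
  letI := (isField_subalgebra hK.comm hK.inv).toField
  haveI : Finite K := Finite.of_injective _ Subtype.val_injective
  have h1 := nrm_subalgebraNormalizer K g hg
  have h2 := nrm_subalgebraNormalizer K g⁻¹ (inv_mem hg)
  let φ : K ≃ₐ[F] K := { cjSub K g h1 h2 with commutes' := fun c => Subtype.ext ((cj g).commutes c) }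
  have h3 : φ ^ 3 = 1 := by
    have := pow_card_eq_one' (x := φ)
    rwa [IsGalois.card_aut_eq_finrank, hK.finrank_eq] at this
  refine fld_cent hK fun k hk => ?_
  have := congrArg (fun ψ : K ≃ₐ[F] K => (ψ ⟨k, hk⟩ : M3 F)) h3
  change cj g (cj g (cj g k)) = k at this
  rw [← cj_mul, ← cj_mul, cj_eq_iff] at this
  rwa [pow_three']

/-- the groups of class 3 -/
def Col3 (M : Subgroup (G3 F)) : Prop :=
  ∃ K : Subalgebra F (M3 F), IsFieldSubalgebra 3 K ∧ M ≤ subalgebraNormalizer K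

theorem Col3.cjS (h : Col3 M) (B : G3 F) : Col3 (cjS B M) := by
  obtain ⟨K, hK, h⟩ := h
  have e : ∀ x, x ∈ K.map (cj B : M3 F →ₐ[F] M3 F) ↔ cj B⁻¹ x ∈ K := fun x =>
    ⟨by rintro ⟨y, hy, rfl⟩; simpa [cj_inv_cj] using hy, fun hx => ⟨_, hx, cj_cj_inv _ _⟩⟩
  refine ⟨K.map (cj B : M3 F →ₐ[F] M3 F), ⟨?_, ?_, ?_⟩, Nrm.le_subalgebraNormalizer fun g hg x hx => ?_⟩
  · rintro _ ⟨x, hx, rfl⟩ _ ⟨y, hy, rfl⟩
    rw [← map_mul, ← map_mul, hK.comm x hx y hy]
  · rintro _ ⟨x, hx, rfl⟩ h0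
    obtain ⟨y, hy, e⟩ := hK.inv x hx (by rintro rfl; exact h0 (map_zero _))
    exact ⟨_, ⟨y, hy, rfl⟩, by rw [← map_mul, e, map_one]⟩
  · exact ((cj B).subalgebraMap K).toLinearEquiv.finrank_eq.symm.trans hK.finrank_eq
  · have := nrm_subalgebraNormalizer K _ (h (mem_cjS.1 hg)) _ ((e x).1 hx)
    rw [cj_mul, cj_mul, cj_cj_inv] at this
    exact (e _).2 this

theorem Col3.inv [Finite F] (h : Col3 M) (hm : Hm M m) (h2 : m * m = 1) : m = 1 ∨ m = -1 := by
  obtain ⟨K, hK, h⟩ := h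
  obtain ⟨g, hg, rfl⟩ := hm
  have := cube_mem hK (h hg)
  rw [pow_three', h2, one_mul] at this
  rcases IsFieldSubalgebra.mul_eq_zero hK (K.sub_mem this K.one_mem) (y := g.val + 1)
    (by rw [sub_mul, mul_add, h2, mul_one, one_mul, add_comm, sub_self]) with e | e
  exacts [Or.inl (sub_eq_zero.1 e), Or.inr (eq_neg_of_add_eq_zero_left e)]

/-- an involution that is monomial, rational and unitary -/
def swp (F : Type*) [Field F] : M3 F := !![0, 1, 0; 1, 0, 0; 0, 0, -1]

theorem det_swp : (swp F).det = 1 := by simp [swp, det_fin_three]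

theorem Col3.not_swp [Finite F] (h : Col3 M) (hm : Hm M (swp F)) : False := by
  rcases h.inv hm (by ext i j; fin_cases i <;> fin_cases j <;> simp [swp, mul_apply, Fin.sum_univ_three])
    with e | e <;> simpa [swp] using congrFun (congrFun e 0) 1

end three

/-! ### Class 5 -/

theorem cjS_sub (B : G3 F) (k : Subfield F) (P : G3 F) :
    cjS B (subfieldSubgroup k P) = subfieldSubgroup k (B * P) := (cjS_mul B P _).symm

theorem hm_sub {k : Subfield F} (hd : m.det ≠ 0) (h : ∀ i j, m i j ∈ k) : Hm (subfieldSubgroup k 1) m :=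
  Hm.of hd fun g hg => mem_subfieldSubgroup_iff.2 ⟨1, one_ne_zero, fun i j => by
    rw [inv_one, cj_one, one_mul, hg]; exact h i j⟩

theorem tr5 {k : Subfield F} {P : G3 F} (hm : Hm (subfieldSubgroup k P) m) (hd : m.det = 1) :
    m.trace ^ 3 ∈ k ∧ m.adjugate.trace ^ 3 ∈ k ∧ m.trace * m.adjugate.trace ∈ k := by
  obtain ⟨g, hg, rfl⟩ := hm
  obtain ⟨μ, h0, h⟩ := mem_subfieldSubgroup_iff.1 hg
  rw [← det_cj P⁻¹] at hd
  rw [← trace_cj P⁻¹, ← tr_adj_cj P⁻¹]
  generalize cj P⁻¹ g.val = n at h hd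
  have h1 : μ ^ 3 ∈ k := by
    rw [show μ ^ 3 = (μ • n).det by rw [det_smul, hd]; simp, det_fin_three]
    simp only [Matrix.smul_apply, smul_eq_mul]
    repeat' first | exact h _ _ | apply add_mem | apply sub_mem | apply mul_mem
  have h2 : μ * n.trace ∈ k := by
    rw [trace_fin_three, mul_add, mul_add]
    exact add_mem (add_mem (h _ _) (h _ _)) (h _ _)
  have h3 : μ ^ 2 * n.adjugate.trace ∈ k := by
    rw [show μ ^ 2 * n.adjugate.trace = μ * n 1 1 * (μ * n 2 2) - μ * n 1 2 * (μ * n 2 1) +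
      (μ * n 0 0 * (μ * n 2 2) - μ * n 0 2 * (μ * n 2 0)) + (μ * n 0 0 * (μ * n 1 1) - μ * n 0 1 * (μ * n 1 0)) by
        simp [adjugate_fin_three, trace_fin_three]; ring]
    repeat' first | exact h _ _ | apply add_mem | apply sub_mem | apply mul_mem
  refine ⟨?_, ?_, ?_⟩
  · convert div_mem (pow_mem h2 3) h1 using 1; field_simp
  · convert div_mem (pow_mem h3 3) (pow_mem h1 2) using 1; field_simp
  · convert div_mem (mul_mem h2 h3) h1 using 1; field_simp

theorem tr5_eq {k : Subfield F} {P : G3 F} (hm : Hm (subfieldSubgroup k P) m) (hd : m.det = 1)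
    (e : m.adjugate.trace = m.trace) : m.trace ∈ k := by
  obtain ⟨h1, -, h2⟩ := tr5 hm hd
  by_cases h0 : m.trace = 0
  · rw [h0]; exact zero_mem _
  · rw [e] at h2
    convert div_mem h1 h2 using 1; field_simp

/-! ### Forms -/

theorem cjS_sim (σ : F →+* F) (G : M3 F) (C : G3 F) :
    similarityGroup (gform σ G) = cjS C (similarityGroup (gform σ (C.valᵀ * G * C.val.map σ))) := by
  ext g
  rw [mem_cjS]
  refine exists_congr fun c => ⟨fun h u v => ?_, fun h u v => ?_⟩
  · simp only [← gform_mulVec, Units.val_mul, ← mulVec_mulVec, gl_mulVec_inv, h]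
  · have := h ((C⁻¹).val *ᵥ u) ((C⁻¹).val *ᵥ v)
    simpa only [← gform_mulVec, Units.val_mul, ← mulVec_mulVec, gl_mulVec_inv] using this

theorem sim_smul (σ : F →+* F) (G : M3 F) {c : F} (hc : c ≠ 0) :
    similarityGroup (gform σ (c • G)) = similarityGroup (gform σ G) := by
  ext g
  refine exists_congr fun d => forall₂_congr fun u v => ?_
  rw [gform_smul_mat, gform_smul_mat, mul_left_comm, mul_right_inj' hc]

theorem hm_sim {σ : F →+* F} {G : M3 F} (hd : m.det ≠ 0) (h : mᵀ * G * m.map σ = G) :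
    Hm (similarityGroup (gform σ G)) m :=
  Hm.of hd fun g hg => mem_similarityGroup_gform.2 ⟨1, by rw [hg, h, Units.val_one, one_smul]⟩

theorem trF {σ : F →+* F} {G : M3 F} (hG : IsUnit G) (hm : Hm (similarityGroup (gform σ G)) m) (hd : m.det = 1) :
    ∃ c : F, c ^ 3 = 1 ∧ σ m.trace = c * m.adjugate.trace ∧ mᵀ * G * m.map σ = c • G := by
  obtain ⟨g, hg, rfl⟩ := hm
  obtain ⟨c, hc⟩ := mem_similarityGroup_gform.1 hg
  obtain ⟨G, rfl⟩ := hG
  refine ⟨c, ?_, ?_, hc⟩
  · have := congrArg det hc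
    rw [det_mul, det_mul, det_transpose, hd, ← RingHom.mapMatrix_apply, ← RingHom.map_det, hd, map_one, det_smul,
      one_mul, mul_one, Fintype.card_fin] at this
    exact (mul_eq_right₀ ((isUnit_iff_isUnit_det _).1 G.isUnit).ne_zero).1 this.symm
  · have h1 : g.val.map σ = (c : F) • cj G⁻¹ g.val.adjugateᵀ := by
      have h2 : g.val.adjugateᵀ * g.valᵀ = 1 := by rw [← transpose_mul, mul_adjugate, hd, one_smul, transpose_one]
      rw [cj_apply, inv_inv, ← mul_smul_comm, ← hc]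
      simp only [← mul_assoc]
      rw [mul_assoc _ _ g.valᵀ, h2, mul_one, Units.inv_mul, one_mul]
    have := congrArg trace h1
    rwa [trace_smul, trace_cj, trace_transpose, ← AddMonoidHom.map_trace] at this

/-- groups preserving a bilinear form up to scalars -/
def ColO (M : Subgroup (G3 F)) : Prop := ∃ G : M3 F, IsUnit G ∧ M ≤ similarityGroup (gform (RingHom.id F) G)

theorem ColO.cjS (h : ColO M) (B : G3 F) : ColO (cjS B M) := by
  obtain ⟨G, hG, h⟩ := h
  refine ⟨_, isUnit_transpose_mul_map (RingHom.id F) hG B⁻¹, ?_⟩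
  rw [cjS_sim _ G B⁻¹] at h
  simpa only [cjS_cjS_inv] using cjS_mono B h

theorem ColO.eig (h : ColO M) (hm : Hm M m) (hd : m.det = 1) : ∃ c : F, (m - c • 1).det = 0 := by
  obtain ⟨G, hG, h⟩ := h
  obtain ⟨c, h1, h2, -⟩ := trF hG (hm.mono h) hd
  refine ⟨c ^ 2, ?_⟩
  rw [det_sub_smul, hd, show m.trace = _ from h2]
  linear_combination (c ^ 2 * m.adjugate.trace - c ^ 3 - 1) * h1

theorem ColO.comm (h : ColO M) (hm : Hm M m) (hn : Hm M n) {w : F} (e : m * n = w • (n * m)) : w ^ 2 = 1 := by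
  obtain ⟨G, hG, h⟩ := h
  obtain ⟨g, hg, rfl⟩ := hm
  obtain ⟨g', hg', rfl⟩ := hn
  obtain ⟨c, hc⟩ := h hg
  obtain ⟨d, hd⟩ := h hg'
  obtain ⟨x, hx⟩ := ((nondeg_gform_iff (σ := RingHom.id F)).2 hG (Pi.single 0 1) (by simp)).1
  have h1 := hc (g'.val *ᵥ x) (g'.val *ᵥ Pi.single 0 1)
  rw [hd, mulVec_mulVec, mulVec_mulVec, e, smul_mulVec, smul_mulVec, gform_smul_left, gform_smul_right,
    ← mulVec_mulVec, ← mulVec_mulVec, hd, hc, RingHom.id_apply] at h1
  refine mul_right_cancel₀ (mul_ne_zero (mul_ne_zero c.ne_zero d.ne_zero) hx) ?_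
  linear_combination h1

theorem trU {σ : F →+* F} (hσ : ∀ a, σ (σ a) = a) {G : M3 F} (hG : IsUnit G) (hh : cT σ G = G)
    (hm : Hm (similarityGroup (gform σ G)) m) (hd : m.det = 1) :
    ∃ c : F, c ^ 3 = 1 ∧ σ m.trace = c * m.adjugate.trace ∧ σ c = c ∧ mᵀ * G * m.map σ = c • G := by
  obtain ⟨c, h1, h2, h3⟩ := trF hG hm hd
  refine ⟨c, h1, h2, ?_, h3⟩
  have h4 := congrArg (cT σ) h3
  have e1 : cT σ (m.map σ) = mᵀ := by ext i j; simp [cT_apply, hσ]
  have e2 : cT σ mᵀ = m.map σ := by ext i j; simp [cT_apply]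
  rw [cT_mul, cT_mul, e1, e2, hh, cT_smul, hh, ← mul_assoc, h3] at h4
  exact (smul_left_injective F hG.ne_zero h4).symm

theorem trU_eq {σ : F →+* F} (hσ : ∀ a, σ (σ a) = a) {G : M3 F} (hG : IsUnit G) (hh : cT σ G = G)
    (hm : Hm (similarityGroup (gform σ G)) m) (hd : m.det = 1) (e : m.adjugate.trace = m.trace) :
    σ m.trace = m.trace := by
  obtain ⟨c, h1, h2, h3, -⟩ := trU hσ hG hh hm hd
  rw [e] at h2
  have h4 := congrArg σ h2
  rw [hσ, map_mul, h3, h2] at h4
  rw [h2]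
  linear_combination c * h4 + m.trace * h1

section su

variable [Fintype F] {q : ℕ} [U.IsSq F q]

/-- the special unitary group -/
abbrev SU3 (F : Type*) [Field F] (q : ℕ) : Subgroup (G3 F) := GU 3 F q ⊓ S3 F

theorem herm_eq : hermForm 3 F q = gform (U.cj q) 1 := by
  funext u v; simp [hermForm, gform, dotProduct, U.cj_apply]

theorem mem_GU {g : G3 F} : g ∈ GU 3 F q ↔ g.valᵀ * g.val.map (U.cj q) = 1 := H98.D3.mem_GU_iff fun _ => rfl

theorem hm_GU (h : mᵀ * m.map (U.cj q) = 1) : Hm (GU 3 F q) m :=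
  Hm.of (fun e => by simpa [e] using congrArg det h) fun g hg => mem_GU.2 (hg ▸ h)

theorem Hm.gu (h : Hm (GU 3 F q) m) : mᵀ * m.map (U.cj q) = 1 := by
  obtain ⟨g, hg, rfl⟩ := h
  exact mem_GU.1 hg

theorem GU_le_sim : GU 3 F q ≤ similarityGroup (gform (U.cj q) 1) := fun g hg =>
  mem_similarityGroup_gform.2 ⟨1, by rw [mul_one, mem_GU.1 hg, Units.val_one, one_smul]⟩

omit [Fintype F] [U.IsSq F q] in
theorem cjS_SU {B : G3 F} (hB : B ∈ GU 3 F q) : cjS B (SU3 F q) = SU3 F q := by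
  rw [cjS_inf, H98.D3.cjS_SL, (nrmS_self _).cjS_eq hB]

theorem trSU (h : Hm (SU3 F q) m) : U.cj q m.trace = m.adjugate.trace := by
  have h1 := (h.mono inf_le_left).gu
  have h2 := h.det inf_le_right
  have h3 : m.map (U.cj q) = m.adjugateᵀ := by
    rw [← one_mul (m.map _), ← transpose_one, ← one_smul F (1 : M3 F), ← h2, ← mul_adjugate, transpose_mul, mul_assoc,
      h1, mul_one]
  have := congrArg trace h3
  rwa [trace_transpose, ← AddMonoidHom.map_trace] at this

end su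

/-! ### Orders -/

theorem card_dvd_three [Finite F] (h : M ≤ S3 F) :
    Nat.card M ∣ 3 * Nat.card (M ⧸ (scalars (Fin 3) F).subgroupOf M) := by
  haveI : Finite (G3 F) := finite_GL
  haveI := isCyclic_scalars (ι := Fin 3) (F := F)
  rw [Subgroup.card_eq_card_quotient_mul_card_subgroup ((scalars (Fin 3) F).subgroupOf M), mul_comm]
  refine mul_dvd_mul_right ?_ _
  haveI := isCyclic_of_injective ((M.subtype.comp ((scalars (Fin 3) F).subgroupOf M).subtype).codRestrict
    (scalars (Fin 3) F) fun g => g.2) fun a b e => Subtype.ext (Subtype.ext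
      (congrArg (fun x : scalars (Fin 3) F => x.1) e))
  rw [← IsCyclic.exponent_eq_card]
  refine Monoid.exponent_dvd_of_forall_pow_eq_one fun g => Subtype.ext (Subtype.ext (Units.ext ?_))
  obtain ⟨c, hc⟩ := (mem_scalars_iff _).1 g.2
  change g.1.1.val ^ 3 = 1
  have := cube_of_scalar (mem_specialLinear.1 (h g.1.2)) hc
  change g.1.1.val = _ at hc
  rw [hc, smul_pow, this, one_pow, one_smul]

end H11.T3
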