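import Mathlib
import Cfsg.Agent.Base

/-!
Elements normalising an extraspecial group of order `27`; elementary abelian groups of order `9` in `S₆`.
-/

set_option autoImplicit false

namespace H11.T3

/-- the plane over the field with three elements -/
abbrev V3 := ZMod 3 × ZMod 3

variable {G : Type*} [Group G] {x y z : G}

/-- `x ^ a * y ^ b` -/
def ee (x y : G) (u : V3) : G := x ^ u.1.val * y ^ u.2.val

theorem pow_val_add (hx : x ^ 3 = 1) (a b : ZMod 3) : x ^ (a + b).val = x ^ a.val * x ^ b.val := by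
  rw [ZMod.val_add, ← pow_eq_pow_mod _ hx, pow_add]

theorem ee_add (hc : Commute x y) (hx : x ^ 3 = 1) (hy : y ^ 3 = 1) (u v : V3) :
    ee x y (u + v) = ee x y u * ee x y v := by
  rw [ee, ee, ee, Prod.fst_add, Prod.snd_add, pow_val_add hx, pow_val_add hy, mul_assoc, mul_assoc,
    ← mul_assoc (x ^ v.1.val), (hc.pow_pow _ _).eq, mul_assoc]

theorem ee_zero : ee x y 0 = 1 := by simp [ee]

theorem ee_nsmul (hc : Commute x y) (hx : x ^ 3 = 1) (hy : y ^ 3 = 1) (n : ℕ) (u : V3) :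
    ee x y (n • u) = ee x y u ^ n := by
  induction n with
  | zero => simp [ee_zero]
  | succ n ih => rw [succ_nsmul, ee_add hc hx hy, ih, pow_succ]

theorem ee_10 : ee x y (1, 0) = x := by simp [ee, ZMod.val_one]

theorem ee_01 : ee x y (0, 1) = y := by simp [ee, ZMod.val_one]

theorem ee_20 : ee x y (2, 0) = x ^ 2 := by simp [ee]; rfl

theorem ee_02 : ee x y (0, 2) = y ^ 2 := by simp [ee]; rfl

theorem ee_nat (hx : x ^ 3 = 1) (hy : y ^ 3 = 1) (a b : ℕ) : ee x y ((a : ZMod 3), (b : ZMod 3)) = x ^ a * y ^ b := by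
  rw [ee, ZMod.val_natCast, ZMod.val_natCast, ← pow_eq_pow_mod _ hx, ← pow_eq_pow_mod _ hy]

open Equiv in
/-- the non-trivial elements of an elementary abelian subgroup of order `9` of `S₆` are not all conjugate -/
theorem a6 {X Y : Perm (Fin 6)} (hc : Commute X Y) (hX : X ^ 3 = 1) (hY : Y ^ 3 = 1) (h1 : X ≠ 1)
    (h2 : Y.support.card = X.support.card) (h3 : (X * Y).support.card = X.support.card)
    (h4 : (X * Y ^ 2).support.card = X.support.card) : False := by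
  classical
  let φ : Multiplicative V3 →* Perm (Fin 6) := MonoidHom.mk' (fun u => ee X Y u.toAdd) fun u v => ee_add hc hX hY _ _
  letI := MulAction.compHom (Fin 6) φ
  have h5 := MulAction.sum_card_fixedBy_eq_card_orbits_mul_card_group (Multiplicative V3) (Fin 6)
  have h6 : ∀ u : Multiplicative V3, Fintype.card (MulAction.fixedBy (Fin 6) u) = 6 - (φ u).support.card := fun u => by
    rw [show 6 - (φ u).support.card = (φ u).supportᶜ.card by rw [Finset.card_compl, Fintype.card_fin],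
      ← Fintype.card_coe]
    exact Fintype.card_congr (Equiv.subtypeEquivRight fun p => by
      rw [Finset.mem_compl, Perm.notMem_support]; rfl)
  have h7 : ∀ u : Multiplicative V3, u ≠ 1 → (φ u).support.card = X.support.card := fun u hu => by
    have key : ∀ v : V3, v = (1, 0) ∨ v = (0, 1) ∨ v = (1, 1) ∨ v = (1, 2) →
        (ee X Y v).support.card = X.support.card := by
      rintro _ (rfl | rfl | rfl | rfl)
      · rw [ee_10]
      · rw [ee_01, h2]
      · rw [← h3]; simp [ee, ZMod.val_one]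
      · rw [← h4]; simp [ee, ZMod.val_one]; rfl
    rcases (by decide : ∀ v : V3, v ≠ 0 → (v = (1, 0) ∨ v = (0, 1) ∨ v = (1, 1) ∨ v = (1, 2)) ∨
      (-v = (1, 0) ∨ -v = (0, 1) ∨ -v = (1, 1) ∨ -v = (1, 2))) u.toAdd hu with h | h
    · exact key _ h
    · rw [← Perm.support_inv, ← map_inv]; exact key _ h
  simp only [h6] at h5
  rw [← Finset.add_sum_erase _ _ (Finset.mem_univ 1), Finset.sum_congr rfl
    (fun u hu => by rw [h7 u (Finset.ne_of_mem_erase hu)]), Finset.sum_const,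
    Finset.card_erase_of_mem (Finset.mem_univ _), map_one, Perm.support_one, Finset.card_univ,
    show Fintype.card (Multiplicative V3) = 9 by simp, Finset.card_empty, smul_eq_mul] at h5
  have h8 : X.support.card ≠ 0 := by rwa [Ne, Finset.card_eq_zero, Perm.support_eq_empty_iff]
  omega

/-- the additive map with given values on the standard basis -/
def lin (v w u : V3) : V3 := u.1.val • v + u.2.val • w

theorem conj_ee (hc : Commute x y) (hx : x ^ 3 = 1) (hy : y ^ 3 = 1) {g : G} {v w : V3}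
    (h1 : g * x * g⁻¹ = ee x y v) (h2 : g * y * g⁻¹ = ee x y w) (n : ℕ) (u : V3) :
    g ^ n * ee x y u * (g ^ n)⁻¹ = ee x y ((lin v w)^[n] u) := by
  induction n with
  | zero => simp
  | succ n ih =>
    rw [Function.iterate_succ_apply', lin, ee_add hc hx hy, ee_nsmul hc hx hy, ee_nsmul hc hx hy, ← h1, ← h2,
      conj_pow, conj_pow, conj_mul, pow_succ', mul_inv_rev]
    change _ = g * ee x y _ * g⁻¹
    rw [← ih]; simp only [mul_assoc]

/-- generators of an extraspecial group of order `27` whose centraliser is the central subgroup `Z` -/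
structure Ex (Z : Subgroup G) (x y z : G) : Prop where
  cen : ∀ c ∈ Z, ∀ g, c * g = g * c
  mem : z ∈ Z
  rel : x * y = z * (y * x)
  x3 : x ^ 3 = 1
  y3 : y ^ 3 = 1
  ord : orderOf z = 3
  cent : ∀ g, g * x = x * g → g * y = y * g → g ∈ Z

/-- `g` normalises the group generated by `x`, `y` and `Z` -/
def Nz (Z : Subgroup G) (x y g : G) : Prop :=
  (∃ c ∈ Z, ∃ a b : ℕ, g * x * g⁻¹ = c * (x ^ a * y ^ b)) ∧ ∃ c ∈ Z, ∃ a b : ℕ, g * y * g⁻¹ = c * (x ^ a * y ^ b)

namespace Ex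

variable {Z : Subgroup G} [Z.Normal] (h : Ex Z x y z)
include h

omit [Z.Normal] in
theorem pow_pow (a b : ℕ) : x ^ a * y ^ b = z ^ (a * b) * (y ^ b * x ^ a) := by
  have c := h.cen z h.mem
  have h1 : ∀ b : ℕ, x * y ^ b = z ^ b * (y ^ b * x) := fun b => by
    induction b with
    | zero => simp
    | succ b ih =>
      rw [pow_succ y, ← mul_assoc, ih, mul_assoc, mul_assoc, h.rel, ← mul_assoc (y ^ b), ← c, pow_succ z]
      simp only [mul_assoc]
  induction a with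
  | zero => simp
  | succ a ih =>
    rw [pow_succ' x, mul_assoc, ih, ← mul_assoc, ← h.cen _ (Z.pow_mem h.mem _), mul_assoc, ← mul_assoc x, h1,
      add_mul, one_mul, pow_add]
    simp only [mul_assoc]

theorem comm : Commute (x : G ⧸ Z) (y : G ⧸ Z) := by
  change (x : G ⧸ Z) * y = y * x
  rw [← QuotientGroup.mk_mul, h.rel, QuotientGroup.mk_mul, (QuotientGroup.eq_one_iff z).2 h.mem, one_mul,
    QuotientGroup.mk_mul]

theorem qx3 : (x : G ⧸ Z) ^ 3 = 1 := by rw [← QuotientGroup.mk_pow, h.x3, QuotientGroup.mk_one]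

theorem qy3 : (y : G ⧸ Z) ^ 3 = 1 := by rw [← QuotientGroup.mk_pow, h.y3, QuotientGroup.mk_one]

theorem act {g : G} (hg : Nz Z x y g) : ∃ v w : V3, v.1 * w.2 = v.2 * w.1 + 1 ∧
    (g : G ⧸ Z) * x * (g : G ⧸ Z)⁻¹ = ee (x : G ⧸ Z) y v ∧ (g : G ⧸ Z) * y * (g : G ⧸ Z)⁻¹ = ee (x : G ⧸ Z) y w := by
  obtain ⟨⟨s, hs, a, b, h1⟩, t, ht, c, d, h2⟩ := hg
  refine ⟨(a, b), (c, d), ?_, ?_, ?_⟩
  · have h3 : g * x * g⁻¹ * (g * y * g⁻¹) = z * (g * y * g⁻¹ * (g * x * g⁻¹)) := by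
      rw [conj_mul, conj_mul, h.rel, ← mul_assoc g, ← h.cen z h.mem]
      simp only [mul_assoc]
    have e : ∀ a b c d : ℕ, ∀ s ∈ Z, ∀ t ∈ Z, z ^ (c * b) * (s * (x ^ a * y ^ b) * (t * (x ^ c * y ^ d))) =
        s * t * (x ^ (a + c) * y ^ (b + d)) := fun a b c d s hs t ht => by
      have c1 := h.cen _ (Z.pow_mem h.mem (c * b))
      calc _ = s * t * (x ^ a * (z ^ (c * b) * (y ^ b * x ^ c)) * y ^ d) := by
            rw [← mul_assoc (s * _), mul_assoc s, ← h.cen t ht, c1, c1]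
            simp only [mul_assoc, ← c1 (y ^ d)]
        _ = _ := by rw [← h.pow_pow, pow_add, pow_add]; simp only [mul_assoc]
    rw [h1, h2] at h3
    have h4 := e a b c d s hs t ht
    rw [h3, ← mul_assoc, h.cen s hs t, add_comm a, add_comm b, ← e c d a b t ht s hs, mul_left_inj, ← pow_succ,
      pow_eq_pow_iff_modEq, h.ord, ← ZMod.natCast_eq_natCast_iff] at h4
    push_cast at h4
    rw [← h4, mul_comm]
  · rw [ee_nat h.qx3 h.qy3, ← QuotientGroup.mk_inv, ← QuotientGroup.mk_mul, ← QuotientGroup.mk_mul, h1,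
      QuotientGroup.mk_mul, (QuotientGroup.eq_one_iff s).2 hs, one_mul]; rfl
  · rw [ee_nat h.qx3 h.qy3, ← QuotientGroup.mk_inv, ← QuotientGroup.mk_mul, ← QuotientGroup.mk_mul, h2,
      QuotientGroup.mk_mul, (QuotientGroup.eq_one_iff t).2 ht, one_mul]; rfl

theorem triv {g : G} (h1 : (g : G ⧸ Z) * x * (g : G ⧸ Z)⁻¹ = x) (h2 : (g : G ⧸ Z) * y * (g : G ⧸ Z)⁻¹ = y) :
    g ^ 3 ∈ Z := by
  have key : ∀ x : G, x ^ 3 = 1 → (g : G ⧸ Z) * x * (g : G ⧸ Z)⁻¹ = x → g ^ 3 * x = x * g ^ 3 := fun x hx e => by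
    have h3 : x⁻¹ * (g * x * g⁻¹) ∈ Z := QuotientGroup.eq.1 e.symm
    set c := x⁻¹ * (g * x * g⁻¹) with hc
    have h4 : g * x * g⁻¹ = x * c := by rw [hc, mul_inv_cancel_left]
    have h5 : c ^ 3 = 1 := by
      have := congrArg (· ^ 3) h4
      simp only [conj_pow, (show Commute x c from (h.cen c h3 x).symm).mul_pow, hx] at this
      simpa using this.symm
    have h6 : g * x = c * (x * g) := by rw [← mul_assoc, h.cen c h3, ← h4, inv_mul_cancel_right]
    have h7 : ∀ u, g * (c * u) = c * (g * u) := fun u => by rw [← mul_assoc, ← h.cen c h3, mul_assoc]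
    have h8 : ∀ u, g * (x * u) = c * (x * (g * u)) := fun u => by rw [← mul_assoc, h6]; simp only [mul_assoc]
    rw [pow_three, mul_assoc, mul_assoc, h6, h7, h7, h8, h7, h8, ← mul_assoc c c, ← mul_assoc (c * c), ← pow_three', h5,
      one_mul]
  exact h.cent _ (key x h.x3 h1) (key y h.y3 h2)

theorem pow36 {g : G} (hg : Nz Z x y g) : g ^ 36 ∈ Z := by
  obtain ⟨v, w, h0, h1, h2⟩ := h.act hg
  have key := (by decide : ∀ v w : V3, v.1 * w.2 = v.2 * w.1 + 1 →
    (lin v w)^[12] (1, 0) = (1, 0) ∧ (lin v w)^[12] (0, 1) = (0, 1)) v w h0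
  have h3 := conj_ee h.comm h.qx3 h.qy3 h1 h2 12
  rw [show 36 = 12 * 3 from rfl, pow_mul]
  exact h.triv (by simpa only [key.1, ee_10, QuotientGroup.mk_pow] using h3 (1, 0))
    (by simpa only [key.2, ee_01, QuotientGroup.mk_pow] using h3 (0, 1))

theorem invol {g : G} (hg : Nz Z x y g) (g2 : g ^ 2 = 1) (hZ : g ∉ Z) :
    (g : G ⧸ Z) * x * (g : G ⧸ Z)⁻¹ = (x : G ⧸ Z) ^ 2 ∧ (g : G ⧸ Z) * y * (g : G ⧸ Z)⁻¹ = (y : G ⧸ Z) ^ 2 := by
  obtain ⟨v, w, h0, h1, h2⟩ := h.act hg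
  have h3 := conj_ee h.comm h.qx3 h.qy3 h1 h2
  have g3 : g ^ 3 = g := by rw [pow_succ, g2, one_mul]
  have q3 : (g : G ⧸ Z) ^ 3 = g := by rw [← QuotientGroup.mk_pow, g3]
  rcases (by decide : ∀ v w : V3, v.1 * w.2 = v.2 * w.1 + 1 →
    ((lin v w)^[3] (1, 0) = (1, 0) ∧ (lin v w)^[3] (0, 1) = (0, 1)) ∨
    ((lin v w)^[3] (1, 0) = (2, 0) ∧ (lin v w)^[3] (0, 1) = (0, 2)) ∨ (lin v w)^[6] (1, 0) = (2, 0)) v w h0
    with key | key | key
  · exact absurd (g3 ▸ h.triv (by simpa only [key.1, ee_10, q3] using h3 3 (1, 0))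
      (by simpa only [key.2, ee_01, q3] using h3 3 (0, 1))) hZ
  · exact ⟨by simpa only [key.1, ee_10, ee_20, q3] using h3 3 (1, 0),
      by simpa only [key.2, ee_01, ee_02, q3] using h3 3 (0, 1)⟩
  · exfalso
    have h4 := h3 6 (1, 0)
    rw [key, ee_10, ee_20, ← QuotientGroup.mk_pow, show 6 = 2 * 3 from rfl, pow_mul, g2, one_pow,
      QuotientGroup.mk_one, one_mul, inv_one, mul_one, pow_two, left_eq_mul, QuotientGroup.eq_one_iff] at h4
    have h5 := h.rel
    rw [h.cen x h4, right_eq_mul] at h5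
    simpa [h5] using h.ord

theorem four {j k : G} (hj : Nz Z x y j) (hk : Nz Z x y k) (j2 : j ^ 2 = 1) (k2 : k ^ 2 = 1)
    (jk : (j * k) ^ 2 = 1) : j ∈ Z ∨ k ∈ Z ∨ j * k ∈ Z := by
  by_contra hc
  push Not at hc
  obtain ⟨h1, h2⟩ := h.invol hj j2 hc.1
  obtain ⟨h3, h4⟩ := h.invol hk k2 hc.2.1
  have key : ∀ u : G ⧸ Z, u ^ 3 = 1 → (j : G ⧸ Z) * u * (j : G ⧸ Z)⁻¹ = u ^ 2 →
      (k : G ⧸ Z) * u * (k : G ⧸ Z)⁻¹ = u ^ 2 → ((j * k : G) : G ⧸ Z) * u * ((j * k : G) : G ⧸ Z)⁻¹ = u :=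
    fun u u3 e1 e2 => by
      rw [QuotientGroup.mk_mul, mul_inv_rev, ← mul_assoc, mul_assoc (j : G ⧸ Z), mul_assoc (j : G ⧸ Z), e2,
        ← conj_pow, e1, ← pow_mul, show 2 * 2 = 3 + 1 from rfl, pow_succ, u3, one_mul]
  have := h.triv (key _ h.qx3 h1 h3) (key _ h.qy3 h2 h4)
  rw [pow_succ, jk, one_mul] at this
  exact hc.2.2 this

end Ex

end H11.T3
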