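import Mathlib
import Cfsg.Agent.Base
import Cfsg.Agent.Lib.Tab3.Basic
import Cfsg.Agent.Lib.Tab3.Ex

/-!
The extraspecial group of order `27` in `GL₃` and its normaliser.
-/

set_option autoImplicit false

namespace H11.T3

open Matrix Cfsg Cfsg.Geo H10.Asch

variable {F : Type*} [Field F] {H M R : Subgroup (G3 F)} {w : F}

/-- primitive cube roots of unity -/
structure IsW (w : F) : Prop where
  eq : w ^ 2 + w + 1 = 0
  ne : w ≠ 1

theorem isW_of (h : w ^ 3 = 1) (h1 : w ≠ 1) : IsW w :=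
  ⟨mul_left_cancel₀ (sub_ne_zero.2 h1) (by linear_combination h), h1⟩

namespace IsW

variable (h : IsW w)
include h

theorem cube : w ^ 3 = 1 := by linear_combination (w - 1) * h.eq

theorem ne_zero : w ≠ 0 := fun e => by simpa [e] using h.eq

theorem sq_ne : w ^ 2 ≠ 1 := fun e => h.ne (by linear_combination h.cube - w * e)

theorem ne_sq : w ≠ w ^ 2 := fun e => h.ne (mul_left_cancel₀ h.ne_zero (by linear_combination -e))

theorem three : (3 : F) ≠ 0 := fun e => h.ne (sub_eq_zero.1 ((pow_eq_zero_iff two_ne_zero).1 (by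
  linear_combination h.eq - w * e)))

theorem s_ne : 1 + 2 * w ≠ 0 := fun e => h.three (by linear_combination 4 * h.eq - (1 + 2 * w) * e)

theorem root {e : F} (he : e ^ 3 = 1) : ∃ a : ℕ, e = w ^ a := by
  have : (e - 1) * ((e - w) * (e - w ^ 2)) = 0 := by
    linear_combination he - (e ^ 2 - w * e) * h.eq - h.cube
  rcases mul_eq_zero.1 this with e1 | e1
  · exact ⟨0, by rw [pow_zero, sub_eq_zero.1 e1]⟩
  rcases mul_eq_zero.1 e1 with e1 | e1
  · exact ⟨1, by rw [pow_one, sub_eq_zero.1 e1]⟩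
  · exact ⟨2, sub_eq_zero.1 e1⟩

end IsW

/-- the diagonal generator -/
def dX (w : F) : M3 F := !![1, 0, 0; 0, w, 0; 0, 0, w ^ 2]

theorem dX_pow (w : F) (a : ℕ) : dX w ^ a = dX (w ^ a) := by
  induction a with
  | zero => ext i j; fin_cases i <;> fin_cases j <;> simp [dX]
  | succ a ih =>
    rw [pow_succ, ih]
    ext i j; fin_cases i <;> fin_cases j <;> simp [dX, mul_apply, Fin.sum_univ_three] <;> ring

theorem dX_cube (h : w ^ 3 = 1) : dX w ^ 3 = 1 := by
  rw [dX_pow, h]; ext i j; fin_cases i <;> fin_cases j <;> simp [dX]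

theorem cyc_cube : cyc F ^ 3 = 1 := by
  ext i j; fin_cases i <;> fin_cases j <;> simp [cyc, pow_three, mul_apply, Fin.sum_univ_three]

theorem dX_cyc (h : w ^ 3 = 1) : dX w * cyc F = w • (cyc F * dX w) := by
  ext i j; fin_cases i <;> fin_cases j <;> simp [dX, cyc, mul_apply, Fin.sum_univ_three]
  · linear_combination -h
  · ring

theorem det_dX (h : w ^ 3 = 1) : (dX w).det = 1 := by
  simp [dX, det_fin_three]; linear_combination h

theorem diag_of_comm (h : IsW w) {m : M3 F} (e : m * dX w = dX w * m) :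
    m = !![m 0 0, 0, 0; 0, m 1 1, 0; 0, 0, m 2 2] := by
  have h1 := sub_ne_zero.2 h.ne
  have h2 := sub_ne_zero.2 h.sq_ne
  have h3 := sub_ne_zero.2 h.ne_sq
  have e' := fun i j => congrFun (congrFun e i) j
  have e1 := e' 0 1; have e2 := e' 0 2; have e3 := e' 1 0; have e4 := e' 1 2; have e5 := e' 2 0; have e6 := e' 2 1
  simp [dX, mul_apply, Fin.sum_univ_three, -mul_eq_mul_left_iff, -mul_eq_mul_right_iff] at e1 e2 e3 e4 e5 e6
  ext i j; fin_cases i <;> fin_cases j <;> simp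
  · exact mul_left_cancel₀ h1 (by linear_combination e1)
  · exact mul_left_cancel₀ h2 (by linear_combination e2)
  · exact mul_left_cancel₀ h1 (by linear_combination -e3)
  · exact mul_left_cancel₀ h3 (by linear_combination -e4)
  · exact mul_left_cancel₀ h2 (by linear_combination -e5)
  · exact mul_left_cancel₀ h3 (by linear_combination e6)

/-- the standard extraspecial group -/
def Heis (F : Type*) [Field F] : Subgroup (G3 F) :=
  Subgroup.closure {g | g.val = cyc F ∨ ∃ e : F, e ^ 3 = 1 ∧ g.val = dX e}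

theorem hm_cyc : Hm (Heis F) (cyc F) :=
  Hm.of (by simp [det_cyc]) fun _ hg => Subgroup.subset_closure (Or.inl hg)

theorem hm_dX (h : w ^ 3 = 1) : Hm (Heis F) (dX w) :=
  Hm.of (by simp [det_dX h]) fun _ hg => Subgroup.subset_closure (Or.inr ⟨w, h, hg⟩)

theorem hm_scal (h : w ^ 3 = 1) (h1 : Hm H (dX w)) (h2 : Hm H (cyc F)) : Hm H (w • 1) := by
  convert (h1.mul h2).mul ((h1.mul h1).mul (h2.mul h2)) using 1
  rw [dX_cyc h, smul_mul_assoc, mul_assoc, ← mul_assoc (dX w), ← pow_three, dX_cube h, one_mul, ← pow_three, cyc_cube]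

theorem Heis_le (h : IsW w) (h1 : Hm H (dX w)) (h2 : Hm H (cyc F)) : Heis F ≤ H := by
  obtain ⟨x, hx, ex⟩ := h1
  obtain ⟨y, hy, ey⟩ := h2
  rw [Heis, Subgroup.closure_le]
  rintro g (e | ⟨e, he, e'⟩)
  · rwa [show g = y from Units.ext (e.trans ey.symm)]
  · obtain ⟨a, rfl⟩ := h.root he
    rw [show g = x ^ a from Units.ext (by rw [e', Units.val_pow_eq_pow_val, ex, dX_pow])]
    exact H.pow_mem hx a

theorem Heis_le_S3 (h : IsW w) : Heis F ≤ S3 F := Heis_le h (hm_S3 (det_dX h.cube)) (hm_S3 det_cyc)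

theorem ex_std (h : IsW w) {x y : G3 F} (hx : x.val = dX w) (hy : y.val = cyc F) :
    Ex (scalars (Fin 3) F) x y (sc _ F (Units.mk0 w h.ne_zero)) where
  cen _ hc := comm_of_mem_scalars hc
  mem := sc_mem _
  rel := Units.ext (by rw [coe_sc_mul, Units.val_mul, Units.val_mul, hx, hy, dX_cyc h.cube]; rfl)
  x3 := Units.ext (by rw [Units.val_pow_eq_pow_val, hx, dX_cube h.cube]; rfl)
  y3 := Units.ext (by rw [Units.val_pow_eq_pow_val, hy, cyc_cube]; rfl)
  ord := by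
    haveI : Fact (Nat.Prime 3) := ⟨Nat.prime_three⟩
    rw [orderOf_injective _ sc_injective]
    exact orderOf_eq_prime (Units.ext (by simpa using h.cube)) fun e => h.ne (congrArg Units.val e)
  cent g h1 h2 := by
    replace h1 := congrArg Units.val h1
    replace h2 := congrArg Units.val h2
    rw [Units.val_mul, Units.val_mul, hx] at h1
    rw [Units.val_mul, Units.val_mul, hy, diag_of_comm h h1] at h2
    have e1 := congrFun (congrFun h2 1) 0
    have e2 := congrFun (congrFun h2 2) 1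
    simp [cyc, mul_apply, Fin.sum_univ_three] at e1 e2
    refine mem_scalars_of_eq_smul (c := g.val 0 0) ?_
    rw [diag_of_comm h h1]
    ext i j; fin_cases i <;> fin_cases j <;> simp [e1, e2]

theorem Ex.form {G : Type*} [Group G] {Z : Subgroup G} {x y z : G} (h : Ex Z x y z) {g : G}
    (hg : g ∈ Subgroup.closure ({x, y} : Set G)) : ∃ c ∈ Z, ∃ a b : ℕ, g = c * (x ^ a * y ^ b) := by
  have z3 : z ^ 3 = 1 := h.ord ▸ pow_orderOf_eq_one z
  have mul : ∀ g g' : G, (∃ c ∈ Z, ∃ a b : ℕ, g = c * (x ^ a * y ^ b)) → (∃ c ∈ Z, ∃ a b : ℕ, g' = c * (x ^ a * y ^ b)) →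
      ∃ c ∈ Z, ∃ a b : ℕ, g * g' = c * (x ^ a * y ^ b) := by
    rintro _ _ ⟨s, hs, a, b, rfl⟩ ⟨t, ht, c, d, rfl⟩
    refine ⟨s * t * (z ^ (c * b))⁻¹, Z.mul_mem (Z.mul_mem hs ht) (Z.inv_mem (Z.pow_mem h.mem _)), a + c, b + d, ?_⟩
    have e : y ^ b * x ^ c = (z ^ (c * b))⁻¹ * (x ^ c * y ^ b) := by rw [h.pow_pow, inv_mul_cancel_left]
    rw [← mul_assoc (s * _), mul_assoc s, ← h.cen t ht, pow_add, pow_add]
    simp only [mul_assoc]
    rw [← mul_assoc (y ^ b), e, ← mul_assoc (z ^ _)⁻¹ (x ^ a), h.cen _ (Z.inv_mem (Z.pow_mem h.mem _)) (x ^ a)]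
    simp only [mul_assoc]
  induction hg using Subgroup.closure_induction'' with
  | mem g hg => rcases hg with rfl | rfl; exacts [⟨1, Z.one_mem, 1, 0, by simp⟩, ⟨1, Z.one_mem, 0, 1, by simp⟩]
  | inv_mem g hg =>
    rcases hg with rfl | rfl
    · exact ⟨1, Z.one_mem, 2, 0, by simpa using inv_eq_of_mul_eq_one_right ((pow_succ' _ 2).symm.trans h.x3)⟩
    · exact ⟨1, Z.one_mem, 0, 2, by simpa using inv_eq_of_mul_eq_one_right ((pow_succ' _ 2).symm.trans h.y3)⟩
  | one => exact ⟨1, Z.one_mem, 0, 0, by simp⟩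
  | mul g g' _ _ h1 h2 => exact mul _ _ h1 h2

theorem Heis_eq (h : IsW w) {x y : G3 F} (hx : x.val = dX w) (hy : y.val = cyc F) :
    Heis F = Subgroup.closure {x, y} := by
  refine le_antisymm (Heis_le h ⟨x, Subgroup.subset_closure (by simp), hx⟩ ⟨y, Subgroup.subset_closure (by simp), hy⟩)
    ((Subgroup.closure_le _).2 ?_)
  rintro g (rfl | rfl)
  exacts [Subgroup.subset_closure (Or.inr ⟨w, h.cube, hx⟩), Subgroup.subset_closure (Or.inl hy)]

/-- the normaliser of the standard extraspecial group -/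
def NH (F : Type*) [Field F] : Subgroup (G3 F) := subgroupNormalizer (Heis F)

theorem cjS_normalizer (B : G3 F) (R : Subgroup (G3 F)) :
    subgroupNormalizer (cjS B R) = cjS B (subgroupNormalizer R) := by
  have key : ∀ (B : G3 F) (R : Subgroup (G3 F)), cjS B (subgroupNormalizer R) ≤ subgroupNormalizer (cjS B R) :=
    fun B R => nrmS_iff_le_normalizer.1 ((nrmS_iff_le_normalizer.2 le_rfl).cjS B)
  refine le_antisymm (le_cjS_of_inv ?_) (key B R)
  simpa only [cjS_inv_cjS] using key B⁻¹ (cjS B R)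

theorem hm_NH [Finite F] (h : IsW w) {m a b : M3 F} (hd : m.det ≠ 0) (ha : Hm (Heis F) a) (hb : Hm (Heis F) b)
    (h1 : m * dX w = a * m) (h2 : m * cyc F = b * m) : Hm (NH F) m := by
  haveI : Finite (G3 F) := finite_GL
  obtain ⟨x, -, hx⟩ := hm_dX h.cube
  obtain ⟨y, -, hy⟩ := hm_cyc (F := F)
  obtain ⟨a, ha, rfl⟩ := ha
  obtain ⟨b, hb, rfl⟩ := hb
  refine Hm.of hd fun g hg => Subgroup.mem_normalizer_fintype fun n hn => ?_
  have : cjS g (Heis F) ≤ Heis F := by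
    conv_lhs => rw [Heis_eq h hx hy, cjS, MonoidHom.map_closure]
    rw [Subgroup.closure_le]
    rintro _ ⟨u, rfl | rfl, rfl⟩
    · rwa [show (MulAut.conj g).toMonoidHom u = a from mul_inv_eq_of_eq_mul (Units.ext (by
        rw [Units.val_mul, Units.val_mul, hg, hx, h1]))]
    · rwa [show (MulAut.conj g).toMonoidHom u = b from mul_inv_eq_of_eq_mul (Units.ext (by
        rw [Units.val_mul, Units.val_mul, hg, hy, h2]))]
  exact this (conj_mem_cjS hn)

theorem nz_of_mem (h : IsW w) {x y g : G3 F} (hx : x.val = dX w) (hy : y.val = cyc F) (hg : g ∈ NH F) :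
    Nz (scalars (Fin 3) F) x y g := by
  have := (nrmS_iff_le_normalizer (H := NH F) (N := Heis F)).2 le_rfl g hg
  rw [Heis_eq h hx hy] at this
  exact ⟨(ex_std h hx hy).form (this x (Subgroup.subset_closure (by simp))),
    (ex_std h hx hy).form (this y (Subgroup.subset_closure (by simp)))⟩

theorem scal_conj {B g : G3 F} (h : B⁻¹ * g * B ∈ scalars (Fin 3) F) : g ∈ scalars (Fin 3) F := by
  simpa [mul_assoc] using scalars_normal.conj_mem _ h B

theorem pow36 (h : IsW w) {B g : G3 F} (hg : g ∈ cjS B (NH F)) : g ^ 36 ∈ scalars (Fin 3) F := by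
  obtain ⟨x, -, hx⟩ := hm_dX h.cube
  obtain ⟨y, -, hy⟩ := hm_cyc (F := F)
  have := (ex_std h hx hy).pow36 (nz_of_mem h hx hy (mem_cjS.1 hg))
  refine scal_conj (B := B) ?_
  have e := conj_pow (a := B⁻¹) (b := g) (i := 36)
  rw [inv_inv] at e
  rwa [e] at this

theorem four6 (h : IsW w) {B j k : G3 F} (hj : j ∈ cjS B (NH F)) (hk : k ∈ cjS B (NH F)) (j2 : j ^ 2 = 1)
    (k2 : k ^ 2 = 1) (jk : (j * k) ^ 2 = 1) :
    j ∈ scalars (Fin 3) F ∨ k ∈ scalars (Fin 3) F ∨ j * k ∈ scalars (Fin 3) F := by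
  obtain ⟨x, -, hx⟩ := hm_dX h.cube
  obtain ⟨y, -, hy⟩ := hm_cyc (F := F)
  have e : ∀ u : G3 F, u ^ 2 = 1 → (B⁻¹ * u * B) ^ 2 = 1 := fun u hu => by
    simpa [hu] using conj_pow (a := B⁻¹) (b := u) (i := 2)
  have e' : B⁻¹ * j * B * (B⁻¹ * k * B) = B⁻¹ * (j * k) * B := by group
  have := (ex_std h hx hy).four (nz_of_mem h hx hy (mem_cjS.1 hj)) (nz_of_mem h hx hy (mem_cjS.1 hk)) (e _ j2) (e _ k2)
    (e' ▸ e _ jk)
  rw [e'] at this
  exact this.imp scal_conj (Or.imp scal_conj scal_conj)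

/-! ### Normal form -/

theorem exists_xy [Finite F] (h3 : ∀ r ∈ R, r ^ 3 = 1) (hR : ActsAbsolutelyIrreducibly (matrixSet R)) :
    ∃ w : F, IsW w ∧ ∃ x ∈ R, ∃ y ∈ R, x.val * y.val = w • (y.val * x.val) ∧
      (∀ r ∈ R, ∃ c : F, c ^ 3 = 1 ∧ x.val * r.val = c • (r.val * x.val)) ∧ ∃ v, v ≠ 0 ∧ x.val *ᵥ v = v := by
  haveI : Finite (G3 F) := finite_GL
  haveI : Fact (Nat.Prime 3) := ⟨Nat.prime_three⟩
  have hp : IsPGroup 3 R := fun r => ⟨1, Subtype.ext (by simpa using h3 r r.2)⟩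
  have hc : ∀ r : R, r ∈ Subgroup.center R → ∃ c : F, c ^ 3 = 1 ∧ r.1.val = c • 1 := fun r hr => by
    obtain ⟨c, hc⟩ := hR.2 r.1.val (by
      rintro _ ⟨s, hs, rfl⟩
      exact congrArg (fun u : R => u.1.val) (Subgroup.mem_center_iff.1 hr ⟨s, hs⟩).symm)
    refine ⟨c, ?_, hc⟩
    have := congrArg Units.val (h3 r r.2)
    rw [Units.val_pow_eq_pow_val, hc, smul_pow, one_pow] at this
    simpa using congrFun (congrFun this 0) 0
  haveI : Nontrivial (R ⧸ Subgroup.center R) := QuotientGroup.nontrivial_iff.2 fun e =>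
    not_le_scalars (irr_iff.2 hR.1) fun r hr => by
      obtain ⟨c, -, hc⟩ := hc ⟨r, hr⟩ (e.ge trivial)
      exact mem_scalars_of_eq_smul hc
  haveI := (hp.to_quotient (Subgroup.center R)).center_nontrivial
  obtain ⟨⟨x, hx⟩, hx1⟩ := exists_ne (1 : Subgroup.center (R ⧸ Subgroup.center R))
  obtain ⟨x, rfl⟩ := QuotientGroup.mk_surjective x
  have key : ∀ r : R, ∃ c : F, c ^ 3 = 1 ∧ x.1.val * r.1.val = c • (r.1.val * x.1.val) := fun r => by
    have := Subgroup.mem_center_iff.1 hx (r : R ⧸ Subgroup.center R)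
    obtain ⟨c, h1, h2⟩ := hc _ (QuotientGroup.eq.1 this)
    refine ⟨c, h1, ?_⟩
    rw [← mul_one (r.1.val * x.1.val), ← mul_smul_comm, ← h2]
    exact congrArg (fun u : R => u.1.val) (mul_inv_cancel_left (r * x) (x * r)).symm
  obtain ⟨y, hy⟩ : ∃ y : R, y * x ≠ x * y := by
    by_contra hc'
    push Not at hc'
    exact hx1 (Subtype.ext ((QuotientGroup.eq_one_iff x).2 (Subgroup.mem_center_iff.2 hc')))
  obtain ⟨w, w3, hw⟩ := key y
  have hW := isW_of w3 fun e => hy (Subtype.ext (Units.ext (by rw [e, one_smul] at hw; exact hw.symm)))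
  refine ⟨w, hW, x, x.2, y, y.2, hw, fun r hr => key ⟨r, hr⟩, ?_⟩
  have x3 : x.1.val ^ 3 = 1 := by simpa using congrArg Units.val (h3 x x.2)
  obtain ⟨a, u, hu, e⟩ : ∃ (a : ℕ) (u : Fin 3 → F), u ≠ 0 ∧ x.1.val *ᵥ u = w ^ a • u := by
    have : (x.1.val - w ^ 0 • 1) * ((x.1.val - w ^ 1 • 1) * (x.1.val - w ^ 2 • 1)) = 0 := by
      calc _ = x.1.val ^ 3 - (w ^ 2 + w + 1) • (x.1.val ^ 2 - w • x.1.val + w • x.1.val) + (w ^ 3 + w ^ 2 + w) • x.1.val
          - w ^ 3 • 1 := by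
            simp only [sub_mul, mul_sub, smul_mul_assoc, mul_smul_comm, one_mul, mul_one, pow_three, pow_two]
            module
        _ = 0 := by
          rw [hW.eq, show w ^ 3 + w ^ 2 + w = w * (w ^ 2 + w + 1) by ring, hW.eq, x3, w3]; simp
    have := congrArg det this
    rw [det_mul, det_mul, det_zero, mul_eq_zero, mul_eq_zero] at this
    have key : ∀ a : ℕ, (x.1.val - w ^ a • 1).det = 0 → ∃ (a : ℕ) (u : Fin 3 → F), u ≠ 0 ∧ x.1.val *ᵥ u = w ^ a • u :=
      fun a h => by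
        obtain ⟨u, hu, e⟩ := exists_mulVec_eq_zero_iff.2 h
        exact ⟨a, u, hu, by rwa [sub_mulVec, smul_mulVec, one_mulVec, sub_eq_zero] at e⟩
    rcases this with h | h | h <;> exact key _ h
  have step : ∀ n : ℕ, x.1.val *ᵥ ((y.1 ^ n).val *ᵥ u) = w ^ (a + n) • ((y.1 ^ n).val *ᵥ u) := fun n => by
    induction n with
    | zero => simpa using e
    | succ n ih =>
      rw [pow_succ', Units.val_mul, ← mulVec_mulVec, mulVec_mulVec _ x.1.val, hw, smul_mulVec, ← mulVec_mulVec, ih,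
        mulVec_smul, smul_smul, ← add_assoc, pow_succ']
  refine ⟨_, gl_mulVec_ne_zero (y.1 ^ (2 * a)) hu, ?_⟩
  rw [step, show a + 2 * a = 3 * a by ring, pow_mul, w3, one_pow, one_smul]

theorem nf6 (h3 : ∀ r ∈ R, r ^ 3 = 1) (h : IsW w) {x y : G3 F} (hx : x ∈ R) (hy : y ∈ R)
    (e : x.val * y.val = w • (y.val * x.val))
    (hr : ∀ r ∈ R, ∃ c : F, c ^ 3 = 1 ∧ x.val * r.val = c • (r.val * x.val)) {v : Fin 3 → F} (hv : v ≠ 0)
    (ev : x.val *ᵥ v = v) : ∃ B : G3 F, B.val = (Matrix.of ![v, y.val *ᵥ v, y.val *ᵥ (y.val *ᵥ v)])ᵀ ∧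
      x.val * B.val = B.val * dX w ∧ R = cjS B (Heis F) := by
  have e1 : x.val *ᵥ (y.val *ᵥ v) = w • (y.val *ᵥ v) := by
    rw [mulVec_mulVec, e, smul_mulVec, ← mulVec_mulVec, ev]
  have e2 : x.val *ᵥ (y.val *ᵥ (y.val *ᵥ v)) = w ^ 2 • (y.val *ᵥ (y.val *ᵥ v)) := by
    rw [mulVec_mulVec, e, smul_mulVec, ← mulVec_mulVec, e1, mulVec_smul, smul_smul, pow_two]
  have e3 : y.val *ᵥ (y.val *ᵥ (y.val *ᵥ v)) = v := by
    rw [mulVec_mulVec, mulVec_mulVec, ← pow_three', ← Units.val_pow_eq_pow_val, h3 y hy, Units.val_one, one_mulVec]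
  set P := (Matrix.of ![v, y.val *ᵥ v, y.val *ᵥ (y.val *ᵥ v)])ᵀ with hP
  have eP : ∀ c : Fin 3 → F, P *ᵥ c = c 0 • v + c 1 • (y.val *ᵥ v) + c 2 • (y.val *ᵥ (y.val *ᵥ v)) := fun c => by
    ext i; simp [hP, mulVec, dotProduct, Fin.sum_univ_three]; ring
  have hX : x.val * P = P * dX w := ext_mulVec fun c => by
    rw [← mulVec_mulVec, ← mulVec_mulVec, eP, eP, mulVec_add, mulVec_add, mulVec_smul, mulVec_smul, mulVec_smul, ev, e1,
      e2, smul_smul, smul_smul]
    simp [dX, mulVec, dotProduct, Fin.sum_univ_three, mul_comm]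
  have hY : y.val * P = P * cyc F := ext_mulVec fun c => by
    rw [← mulVec_mulVec, ← mulVec_mulVec, eP, eP, mulVec_add, mulVec_add, mulVec_smul, mulVec_smul, mulVec_smul, e3]
    simp [cyc, mulVec, dotProduct, Fin.sum_univ_three]
    abel
  have hd : P.det ≠ 0 := fun h0 => by
    obtain ⟨c, hc, ec⟩ := exists_mulVec_eq_zero_iff.2 h0
    rcases irr_aux h.ne.symm h.sq_ne.symm h.ne_sq (W := LinearMap.ker (toLin' P))
      (fun u (hu : P *ᵥ u = 0) => show P *ᵥ (dX w *ᵥ u) = 0 by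
        rw [mulVec_mulVec, ← hX, ← mulVec_mulVec, hu, mulVec_zero])
      (fun u (hu : P *ᵥ u = 0) => show P *ᵥ (cyc F *ᵥ u) = 0 by
        rw [mulVec_mulVec, ← hY, ← mulVec_mulVec, hu, mulVec_zero]) with h1 | h1
    · exact hc ((Submodule.eq_bot_iff _).1 h1 c ec)
    · have : P *ᵥ Pi.single 0 1 = 0 := h1.ge (Submodule.mem_top (x := Pi.single 0 1))
      exact hv (by simpa [eP] using this)
  set B := GeneralLinearGroup.mkOfDetNeZero P hd with hB
  have hB' : B.val = P := rfl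
  have ex : (B⁻¹ * x * B).val = dX w := by
    rw [Units.val_mul, Units.val_mul, mul_assoc, hB', hX, ← hB', Units.inv_mul_cancel_left]
  have ey : (B⁻¹ * y * B).val = cyc F := by
    rw [Units.val_mul, Units.val_mul, mul_assoc, hB', hY, ← hB', Units.inv_mul_cancel_left]
  refine ⟨B, rfl, hX, le_antisymm (fun r hr' => ?_) ?_⟩
  · obtain ⟨c, c3, hc⟩ := hr r hr'
    obtain ⟨a, rfl⟩ := h.root c3
    have h4 : ∀ n : ℕ, x.val * (y ^ n).val = w ^ n • ((y ^ n).val * x.val) := fun n => by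
      induction n with
      | zero => simp
      | succ n ih =>
        rw [pow_succ, Units.val_mul, ← mul_assoc, ih, smul_mul_assoc, mul_assoc, e, mul_smul_comm, smul_smul, pow_succ,
          mul_assoc]
    set t := r * y ^ (2 * a) with ht
    have htR : t ∈ R := R.mul_mem hr' (R.pow_mem hy _)
    have h5 : x * t = t * x := Units.ext (by
      rw [Units.val_mul, ht, Units.val_mul, ← mul_assoc, hc, smul_mul_assoc, mul_assoc, h4, mul_smul_comm, smul_smul,
        ← pow_add, show a + 2 * a = 3 * a by ring, pow_mul, h.cube, one_pow, one_smul, Units.val_mul, Units.val_mul,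
        mul_assoc])
    have h6 := diag_of_comm h (m := (B⁻¹ * t * B).val) (by
      rw [← ex, ← Units.val_mul, ← Units.val_mul]
      congr 1
      calc _ = B⁻¹ * (t * x) * B := by group
        _ = _ := by rw [← h5]; group)
    have h7 : ∀ u ∈ R, (B⁻¹ * u * B).val ^ 3 = 1 := fun u hu => by
      rw [← Units.val_pow_eq_pow_val, show (B⁻¹ * u * B) ^ 3 = B⁻¹ * u ^ 3 * B by rw [pow_three, pow_three]; group,
        h3 u hu, mul_one, inv_mul_cancel, Units.val_one]
    have h8 := h7 t htR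
    have h9 := h7 _ (R.mul_mem htR hy)
    rw [show B⁻¹ * (t * y) * B = B⁻¹ * t * B * (B⁻¹ * y * B) by group, Units.val_mul, ey] at h9
    generalize (B⁻¹ * t * B).val 0 0 = d0, (B⁻¹ * t * B).val 1 1 = d1, (B⁻¹ * t * B).val 2 2 = d2 at h6
    rw [h6] at h8 h9
    have f0 := congrFun (congrFun h8 0) 0
    have f1 := congrFun (congrFun h8 1) 1
    have f2 := congrFun (congrFun h9 0) 0
    simp [pow_three, cyc, mul_apply, Fin.sum_univ_three] at f0 f1 f2
    have g0 : d0 ^ 3 = 1 := by linear_combination f0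
    have g1 : (d1 * d0 ^ 2) ^ 3 = 1 := by linear_combination d0 ^ 6 * f1 + (d0 ^ 3 + 1) * g0
    obtain ⟨u, hu, eu⟩ := (hm_scal g0 (hm_dX g0) hm_cyc).mul (hm_dX g1)
    have h10 : B⁻¹ * t * B = u := Units.ext (by
      rw [h6, eu]
      ext i j; fin_cases i <;> fin_cases j <;> simp [dX]
      · linear_combination -d1 * g0
      · linear_combination d1 ^ 2 * d0 ^ 2 * f2 - d2 * d0 ^ 3 * f1 - (d2 + d1 ^ 2 * d0 ^ 2) * g0)
    obtain ⟨y', hy', ey'⟩ := hm_cyc (F := F)
    rw [mem_cjS, show B⁻¹ * r * B = B⁻¹ * t * B * ((B⁻¹ * y * B) ^ (2 * a))⁻¹ by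
      have := conj_pow (a := B⁻¹) (b := y) (i := 2 * a)
      rw [inv_inv] at this
      rw [this, ht]; group, h10, show B⁻¹ * y * B = y' from Units.ext (ey.trans ey'.symm)]
    exact (Heis F).mul_mem hu ((Heis F).inv_mem ((Heis F).pow_mem hy' _))
  · rw [← cjS_cjS_inv B R]
    exact cjS_mono _ (Heis_le h ⟨_, by simpa [mem_cjS, mul_assoc] using hx, ex⟩ ⟨_, by simpa [mem_cjS, mul_assoc] using hy, ey⟩)

end H11.T3
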