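import Mathlib
import Cfsg.Agent.Base
import Cfsg.Agent.Lib.Tab3.Heis

/-!
The Hessian group `3^{1+2}:Q₈`.
-/

set_option autoImplicit false

namespace H11.T3

open Matrix Cfsg Cfsg.Geo H10.Asch

variable {F : Type*} [Field F] {H M R : Subgroup (G3 F)} {w : F}

theorem cube_of_type (h : IsSymplecticTypeGroup 3 R) : ∀ r ∈ R, r ^ 3 = 1 := fun r hr => by
  have := Monoid.pow_exponent_eq_one (⟨r, hr⟩ : R)
  rw [h.exponent_eq] at this
  exact congrArg Subtype.val this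

theorem nf6_lin [Finite F] (h3 : ∀ r ∈ R, r ^ 3 = 1) (hR : ActsAbsolutelyIrreducibly (matrixSet R)) :
    ∃ w : F, IsW w ∧ ∃ B : G3 F, R = cjS B (Heis F) := by
  obtain ⟨w, h, x, hx, y, hy, e, hr, v, hv, ev⟩ := exists_xy h3 hR
  obtain ⟨B, -, -, hB⟩ := nf6 h3 h hx hy e hr hv ev
  exact ⟨w, h, B, hB⟩

theorem IsW.cj [Fintype F] {q : ℕ} [U.IsSq F q] (h : IsW w) (hq : q % 3 = 2) : U.cj q w = w ^ 2 := by
  rw [U.cj_apply, pow_eq_pow_mod q h.cube, hq]

theorem nf6_uni [Fintype F] {q : ℕ} [U.IsSq F q] (hq : q % 3 = 2) (h3 : ∀ r ∈ R, r ^ 3 = 1)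
    (hR : ActsAbsolutelyIrreducibly (matrixSet R)) (hS : R ≤ similarityGroup (hermForm 3 F q)) :
    ∃ w : F, IsW w ∧ ∃ B ∈ GU 3 F q, R = cjS B (Heis F) := by
  obtain ⟨w, h, x, hx, y, hy, e, hr, v, hv, ev⟩ := exists_xy h3 hR
  obtain ⟨B, hB, hX, hBR⟩ := nf6 h3 h hx hy e hr hv ev
  have hG : R ≤ GU 3 F q := fun r hr => by
    obtain ⟨c, c3, -, hc, e⟩ := trU U.cj_cj isUnit_one (cT_one _) ⟨r, herm_eq (F := F) (q := q) ▸ hS hr, rfl⟩
      (mem_specialLinear.1 ((hBR.le.trans (cjS_le_S3 B (Heis_le_S3 h))) hr))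
    rw [U.cj_apply, pow_eq_pow_mod q c3, hq] at hc
    rw [show c = 1 by linear_combination c3 - (c + 1) * hc, one_smul, mul_one] at e
    exact mem_GU.2 e
  have key : ∀ (v : Fin 3 → F) (B : M3 F), B = (Matrix.of ![v, y.val *ᵥ v, y.val *ᵥ (y.val *ᵥ v)])ᵀ →
      x.val * B = B * dX w → Bᵀ * B.map (U.cj q) = hermForm 3 F q v v • 1 := fun v B hB hX => by
    have h1 : dX w * (Bᵀ * B.map (U.cj q)) * (dX w).map (U.cj q) = Bᵀ * B.map (U.cj q) := by
      have : (dX w)ᵀ = dX w := by ext i j; fin_cases i <;> fin_cases j <;> simp [dX]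
      rw [← mul_assoc, mul_assoc _ _ ((dX w).map _), ← Matrix.map_mul, ← hX, ← this, ← transpose_mul, ← hX,
        transpose_mul, Matrix.map_mul, mul_assoc, ← mul_assoc x.valᵀ, mem_GU.1 (hG hx), one_mul]
    have h2 : (dX w).map (U.cj q) * dX w = 1 := by
      ext i j; fin_cases i <;> fin_cases j <;> simp [dX, mul_apply, Fin.sum_univ_three, h.cj hq]
      · linear_combination h.cube
      · linear_combination (w ^ 3 + 1) * h.cube
    have h4 := diag_of_comm h (m := Bᵀ * B.map (U.cj q)) (by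
      conv_lhs => rw [← h1, mul_assoc, h2, mul_one])
    have h5 : ∀ i, (Bᵀ * B.map (U.cj q)) i i = hermForm 3 F q v v := fun i => by
      have e1 := hG hy v v
      have e2 := (hG hy (y.val *ᵥ v) (y.val *ᵥ v)).trans e1
      fin_cases i
      · simp [hB, mul_apply, U.form_def]
      · exact Eq.trans (by simp [hB, mul_apply, U.form_def]) e1
      · exact Eq.trans (by simp [hB, mul_apply, U.form_def]) e2
    rw [h4, h5, h5, h5]
    ext i j; fin_cases i <;> fin_cases j <;> simp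
  have h0 : hermForm 3 F q v v ≠ 0 := fun e0 => by
    have := isUnit_transpose_mul_map (U.cj q) isUnit_one B
    rw [mul_one, key v B hB hX, e0, zero_smul] at this
    exact not_isUnit_zero this
  obtain ⟨μ, hμ⟩ := U.exists_norm_eq (q := q) (c := (hermForm 3 F q v v)⁻¹) (by rw [map_inv₀, U.cj_form])
  obtain ⟨B', hB', hX', hBR'⟩ := nf6 h3 h hx hy e hr (v := μ • v)
    (smul_ne_zero (by rintro rfl; exact h0 (by simpa using hμ.symm)) hv) (by rw [mulVec_smul, ev])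
  refine ⟨w, h, B', mem_GU.2 ?_, hBR'⟩
  rw [key _ _ hB' hX', U.form_smul_left, U.form_smul_right, ← mul_assoc, hμ, inv_mul_cancel₀ h0, one_smul]

/-- the Fourier matrix -/
def Phi (w : F) : M3 F := (1 + 2 * w)⁻¹ • !![1, 1, 1; 1, w, w ^ 2; 1, w ^ 2, w]

/-- a conjugate of the Fourier matrix -/
def Psi (w : F) : M3 F := (1 + 2 * w)⁻¹ • !![1, 1, w ^ 2; 1, w, w; w, 1, w]

/-- `H` contains the Hessian group -/
structure Hess (H : Subgroup (G3 F)) (w : F) : Prop where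
  hw : IsW w
  x : Hm H (dX w)
  y : Hm H (cyc F)
  f : Hm H (Phi w)
  g : Hm H (Psi w)

namespace IsW

variable (h : IsW w)
include h

theorem det_Phi : (Phi w).det = 1 := by
  have := h.s_ne
  rw [Phi, det_smul]
  simp [det_fin_three]
  field_simp
  linear_combination (-w ^ 2 - 7 * w - 1) * h.eq

theorem det_Psi : (Psi w).det = 1 := by
  have := h.s_ne
  rw [Psi, det_smul]
  simp [det_fin_three]
  field_simp
  linear_combination (-w ^ 2 - 7 * w - 1) * h.eq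

theorem Phi_x : Phi w * dX w = cyc F * cyc F * Phi w := by
  rw [Phi, smul_mul_assoc, mul_smul_comm]
  congr 1
  ext i j; fin_cases i <;> fin_cases j <;> simp [dX, cyc, mul_apply, Fin.sum_univ_three] <;>
    first | ring1 | linear_combination h.cube | linear_combination w * h.cube

theorem Phi_y : Phi w * cyc F = dX w * Phi w := by
  rw [Phi, smul_mul_assoc, mul_smul_comm]
  congr 1
  ext i j; fin_cases i <;> fin_cases j <;> simp [dX, cyc, mul_apply, Fin.sum_univ_three] <;>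
    first | ring1 | linear_combination -h.cube | linear_combination -w * h.cube

theorem Psi_x : Psi w * dX w = w • 1 * (dX w * cyc F * (dX w * cyc F)) * Psi w := by
  rw [Psi, smul_mul_assoc, mul_smul_comm]
  congr 1
  ext i j; fin_cases i <;> fin_cases j <;>
    simp [dX, cyc, mul_apply, Fin.sum_univ_three, -mul_eq_mul_left_iff, -mul_eq_mul_right_iff] <;>
    (have := h.eq; grind)

theorem Psi_y : Psi w * cyc F = dX w * cyc F * dX w * Psi w := by
  rw [Psi, smul_mul_assoc, mul_smul_comm]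
  congr 1
  ext i j; fin_cases i <;> fin_cases j <;> simp [dX, cyc, mul_apply, Fin.sum_univ_three] <;>
    first | ring1 | linear_combination -h.cube | linear_combination -w * h.cube | linear_combination -w ^ 2 * h.cube

theorem Phi_sq : Phi w * Phi w = !![-1, 0, 0; 0, 0, -1; 0, -1, 0] := by
  have := h.s_ne
  rw [Phi, smul_mul_smul_comm, ← mul_inv, inv_smul_eq_iff₀ (mul_ne_zero this this)]
  ext i j; fin_cases i <;> fin_cases j <;> simp [mul_apply, Fin.sum_univ_three] <;>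
    first | linear_combination h.eq | linear_combination 4 * h.eq | linear_combination (w ^ 2 - w + 1) * h.eq |
      linear_combination 4 * h.eq + 2 * h.cube

theorem hess_NH [Finite F] : Hess (NH F) w := by
  have x := hm_dX h.cube
  have y := hm_cyc (F := F)
  have l : Heis F ≤ NH F := Subgroup.le_normalizer
  exact ⟨h, x.mono l, y.mono l, hm_NH h (by simp [h.det_Phi]) (y.mul y) x h.Phi_x h.Phi_y,
    hm_NH h (by simp [h.det_Psi]) ((hm_scal h.cube x y).mul ((x.mul y).mul (x.mul y))) ((x.mul y).mul x) h.Psi_x h.Psi_y⟩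

theorem hess_S3 : Hess (S3 F) w := ⟨h, hm_S3 (det_dX h.cube), hm_S3 det_cyc, hm_S3 h.det_Phi, hm_S3 h.det_Psi⟩

theorem hess_sub {k : Subfield F} (hk : w ∈ k) : Hess (subfieldSubgroup k 1) w := by
  have h2 : (1 + 2 * w)⁻¹ ∈ k := inv_mem (add_mem (one_mem _) (mul_mem (natCast_mem k 2) hk))
  refine ⟨h, hm_sub (by simp [det_dX h.cube]) fun i j => ?_, hm_sub (by simp [det_cyc]) fun i j => ?_,
    hm_sub (by simp [h.det_Phi]) fun i j => ?_, hm_sub (by simp [h.det_Psi]) fun i j => ?_⟩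
  · fin_cases i <;> fin_cases j <;> simp [dX, hk, pow_mem]
  · fin_cases i <;> fin_cases j <;> simp [cyc]
  · refine mul_mem h2 ?_
    fin_cases i <;> fin_cases j <;> simp [hk, pow_mem]
  · refine mul_mem h2 ?_
    fin_cases i <;> fin_cases j <;> simp [hk, pow_mem]

theorem hess_GU [Fintype F] {q : ℕ} [U.IsSq F q] (hq : q % 3 = 2) : Hess (GU 3 F q) w := by
  have e := h.cj hq
  have h3 := h.three
  have key : ∀ m : M3 F, mᵀ * m.map (U.cj q) = (3 : F) • 1 → Hm (GU 3 F q) ((1 + 2 * w)⁻¹ • m) := fun m hm => by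
    refine hm_GU ?_
    rw [transpose_smul, Matrix.map_smul' _ _ _ (map_mul _), smul_mul_smul_comm, hm, smul_smul, map_inv₀, ← mul_inv,
      show (1 + 2 * w) * U.cj q (1 + 2 * w) = 3 by
        rw [map_add, map_mul, map_one, map_ofNat, e]; linear_combination 2 * h.eq + 4 * h.cube,
      inv_mul_cancel₀ h3, one_smul]
  refine ⟨h, hm_GU ?_, hm_GU ?_, key _ ?_, key _ ?_⟩ <;> ext i j <;> fin_cases i <;> fin_cases j <;>
    simp [dX, cyc, mul_apply, Fin.sum_univ_three, e] <;>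
    (have := h.eq; grind)

end IsW

namespace Hess

theorem mono (h : Hess H w) (hle : H ≤ M) : Hess M w := ⟨h.hw, h.x.mono hle, h.y.mono hle, h.f.mono hle, h.g.mono hle⟩

theorem inf (h : Hess H w) (h' : Hess M w) : Hess (H ⊓ M) w :=
  ⟨h.hw, h.x.inf h'.x, h.y.inf h'.y, h.f.inf h'.f, h.g.inf h'.g⟩

variable (h : Hess M w)
include h

theorem irr : Irr M := irr_of_diag h.hw.ne.symm h.hw.sq_ne.symm h.hw.ne_sq h.x h.y

theorem not_mon {B : G3 F} (hM : M ≤ cjS B (Mon F)) : False := by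
  obtain ⟨π, hπ⟩ := exists_pi2 hM
  obtain ⟨x, hx, ex⟩ := h.x
  obtain ⟨y, hy, ey⟩ := h.y
  obtain ⟨f, hf, ef⟩ := h.f
  have e1 : (⟨f, hf⟩ * ⟨x, hx⟩ : M) = ⟨y, hy⟩ * ⟨y, hy⟩ * ⟨f, hf⟩ := Subtype.ext (Units.ext (by
    simpa only [Subgroup.coe_mul, Units.val_mul, ex, ey, ef] using h.hw.Phi_x))
  have e2 : (⟨f, hf⟩ * ⟨y, hy⟩ : M) = ⟨x, hx⟩ * ⟨f, hf⟩ := Subtype.ext (Units.ext (by
    simpa only [Subgroup.coe_mul, Units.val_mul, ex, ey, ef] using h.hw.Phi_y))
  have e3 : (⟨x, hx⟩ : M) ^ 3 = 1 := Subtype.ext (ex_std h.hw ex ey).x3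
  obtain ⟨h1, h2⟩ := (by set_option synthInstance.maxSize 1000 in decide +kernel : ∀ s X Y : Equiv.Perm (Fin 3),
    s * X = Y * Y * s → s * Y = X * s → X ^ 3 = 1 → X = 1 ∧ Y = 1) (π ⟨f, hf⟩) (π ⟨x, hx⟩) (π ⟨y, hy⟩) (by simpa only [map_mul] using congrArg π e1)
    (by simpa only [map_mul] using congrArg π e2) (by rw [← map_pow, e3, map_one])
  have := congrArg (fun u : M => u.1.val 1 0) (hπ.comm _ _ h1 h2)
  simp [ex, ey, dX, cyc, mul_apply, Fin.sum_univ_three] at this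
  exact h.hw.ne this

theorem not_col3 [Finite F] (hM : Col3 M) : False := by
  have := h.f.mul h.f
  rw [h.hw.Phi_sq] at this
  rcases hM.inv this (by ext i j; fin_cases i <;> fin_cases j <;> simp [mul_apply, Fin.sum_univ_three])
    with e | e <;> simpa using congrFun (congrFun e 1) 2

theorem not_colO (hM : ColO M) : False := h.hw.sq_ne (hM.comm h.x h.y (dX_cyc h.hw.cube))

theorem not_A6 {π : M →* Equiv.Perm (Fin 6)} (hπ : ∀ g, π g = 1 ↔ g.1 ∈ scalars (Fin 3) F) : False := by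
  obtain ⟨x, hx, ex⟩ := h.x
  obtain ⟨y, hy, ey⟩ := h.y
  obtain ⟨f, hf, ef⟩ := h.f
  obtain ⟨g, hg, eg⟩ := h.g
  obtain ⟨z, hz, ez⟩ := hm_scal h.hw.cube h.x h.y
  have e0 : π ⟨z, hz⟩ = 1 := (hπ _).2 (mem_scalars_of_eq_smul ez)
  have e1 : (⟨f, hf⟩ * ⟨x, hx⟩ : M) = ⟨y, hy⟩ * ⟨y, hy⟩ * ⟨f, hf⟩ := Subtype.ext (Units.ext (by
    simpa only [Subgroup.coe_mul, Units.val_mul, ex, ey, ef] using h.hw.Phi_x))
  have e2 : (⟨f, hf⟩ * ⟨y, hy⟩ : M) = ⟨x, hx⟩ * ⟨f, hf⟩ := Subtype.ext (Units.ext (by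
    simpa only [Subgroup.coe_mul, Units.val_mul, ex, ey, ef] using h.hw.Phi_y))
  have e3 : (⟨g, hg⟩ * ⟨x, hx⟩ : M) = ⟨z, hz⟩ * (⟨x, hx⟩ * ⟨y, hy⟩ * (⟨x, hx⟩ * ⟨y, hy⟩)) * ⟨g, hg⟩ :=
    Subtype.ext (Units.ext (by simpa only [Subgroup.coe_mul, Units.val_mul, ex, ey, eg, ez] using h.hw.Psi_x))
  have e4 : (⟨x, hx⟩ * ⟨y, hy⟩ : M) = ⟨z, hz⟩ * (⟨y, hy⟩ * ⟨x, hx⟩) := Subtype.ext (Units.ext (by
    simpa only [Subgroup.coe_mul, Units.val_mul, ex, ey, ez, smul_mul_assoc, one_mul] using dX_cyc h.hw.cube))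
  have x3 : π ⟨x, hx⟩ ^ 3 = 1 := by rw [← map_pow, show (⟨x, hx⟩ : M) ^ 3 = 1 from Subtype.ext (ex_std h.hw ex ey).x3, map_one]
  have y3 : π ⟨y, hy⟩ ^ 3 = 1 := by rw [← map_pow, show (⟨y, hy⟩ : M) ^ 3 = 1 from Subtype.ext (ex_std h.hw ex ey).y3, map_one]
  have x1 : π ⟨x, hx⟩ ≠ 1 := fun e => by
    obtain ⟨c, hc⟩ := (mem_scalars_iff _).1 ((hπ _).1 e)
    have h1 := congrFun (congrFun hc 0) 0
    have h2 := congrFun (congrFun hc 1) 1
    simp [ex, dX] at h1 h2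
    exact h.hw.ne (h2.trans h1.symm)
  replace e1 := congrArg π e1
  replace e2 := congrArg π e2
  replace e3 := congrArg π e3
  replace e4 := congrArg π e4
  simp only [map_mul, e0, one_mul] at e1 e2 e3 e4
  generalize π ⟨x, hx⟩ = X, π ⟨y, hy⟩ = Y, π ⟨f, hf⟩ = s, π ⟨g, hg⟩ = t at *
  have c : Commute X Y := e4
  have key : ∀ a b s : Equiv.Perm (Fin 6), s * a = b * s → b.support.card = a.support.card := fun a b s e => by
    rw [← mul_inv_eq_iff_eq_mul.2 e, Equiv.Perm.card_support_conj]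
  have h1 : (X * Y).support.card = X.support.card := by
    rw [← key _ _ _ e3, ← Equiv.Perm.support_inv, inv_eq_of_mul_eq_one_right (b := X * Y * (X * Y))]
    rw [← pow_three, c.mul_pow, x3, y3, one_mul]
  refine a6 c x3 y3 x1 (key _ _ _ e2).symm h1 ?_
  rw [← h1]
  exact key _ _ s (by rw [← mul_assoc, e1, mul_assoc, e2, ← mul_assoc, (c.pow_right 2).eq, pow_two])

end Hess

end H11.T3
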