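import Mathlib
import Cfsg.Agent.Base
import Cfsg.Agent.Lib.Tab3.Orth

/-!
Subfield subgroups of `SL₃`, and the shape of the table.
-/

set_option autoImplicit false

namespace H11.T3

open Matrix Cfsg Cfsg.Geo H10.Asch

variable {F : Type*} [Field F] {H M : Subgroup (G3 F)} {k k' : Subfield F}

theorem max_row [Finite F] {G H₀ : Subgroup (G3 F)} {B : G3 F} (e : H = cjS B H₀) (h1 : H ≤ G) (h2 : ¬ G ≤ H)
    (h : ∀ M, IsMaximalIn G M → H₀ ≤ cjS B⁻¹ M → cjS B⁻¹ M ≤ H₀) : IsMaximalIn G H := by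
  haveI : Finite (G3 F) := finite_GL
  subst e
  exact max_of (lt_of_le_not_ge h1 h2) fun M hM hle => le_cjS_of_inv (h M hM (le_cjS_inv hle))

theorem same [Finite F] {B : G3 F} (e : M = cjS B H) (h : H ≤ M) : M ≤ H := by
  haveI : Finite (G3 F) := finite_GL
  subst e
  exact le_of_le_cjS h

theorem le_left {B : G3 F} {K : Subgroup (G3 F)} (e : M = cjS B (H ⊓ K)) : M ≤ cjS B H :=
  e.le.trans (cjS_mono B inf_le_left)

theorem le_sub {B : G3 F} {K : Subgroup (G3 F)} (e : M = cjS B (subfieldSubgroup k 1 ⊓ K)) :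
    M ≤ subfieldSubgroup k (B * 1) := (le_left e).trans (cjS_sub B k 1).le

theorem exists_herm {σ : F →+* F} (hσ : ∀ a, σ (σ a) = a) {B : G3 F} (h : M ≤ cjS B (similarityGroup (gform σ 1))) :
    ∃ G : M3 F, IsUnit G ∧ cT σ G = G ∧ M ≤ similarityGroup (gform σ G) := by
  refine ⟨_, isUnit_transpose_mul_map σ isUnit_one B⁻¹, ?_, ?_⟩
  · ext i j; simp [cT_apply, mul_apply, hσ, mul_comm]
  · rwa [cjS_sim σ 1 B⁻¹, cjS_cjS_inv] at h

theorem subfield_eq [Fintype F] {r r' : ℕ} (hr : r.Prime) (hr' : r'.Prime) (h1 : Fintype.card F = Nat.card k ^ r)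
    (h2 : Fintype.card F = Nat.card k' ^ r') (h : k ≤ k') : k = k' := by
  letI := (Subfield.inclusion h).toAlgebra
  have h3 := Module.natCard_eq_pow_finrank (K := k) (V := k')
  rw [h1, h3, ← pow_mul] at h2
  have h4 := Nat.pow_right_injective (Finite.one_lt_card (α := k)) h2
  rcases (Nat.dvd_prime hr).1 ⟨_, h4⟩ with e | e
  · ext x
    rw [H98.D3.mem_subfield_iff, H98.D3.mem_subfield_iff, h3, e, pow_one]
  · rw [e, left_eq_mul₀ hr.ne_zero] at h4
    exact absurd h4 hr'.ne_one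

theorem exists_isW [Fintype F] (h : 3 ∣ Fintype.card F - 1) : ∃ w : F, IsW w := by
  haveI : Fact (Nat.Prime 3) := ⟨Nat.prime_three⟩
  obtain ⟨x, hx⟩ := exists_prime_orderOf_dvd_card' (G := Fˣ) 3 (by rwa [Nat.card_units, Nat.card_eq_fintype_card])
  refine ⟨x, isW_of (by rw [← Units.val_pow_eq_pow_val, ← hx, pow_orderOf_eq_one, Units.val_one]) fun e => ?_⟩
  rw [show x = 1 from Units.ext e, orderOf_one] at hx
  omega

theorem range_eq_bot_of_perfect {S T : Type*} [Group S] [Group T] [Group.IsSolvable T] (hS : commutator S = ⊤)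
    (f : S →* T) : f.range = ⊥ := by
  by_contra h0
  haveI := (Subgroup.nontrivial_iff_ne_bot _).2 h0
  refine (Group.IsSolvable.commutator_lt_top_of_nontrivial f.range).ne ?_
  rw [commutator_def, ← Subgroup.map_top_of_surjective _ f.rangeRestrict_surjective, ← Subgroup.map_commutator,
    ← commutator_def, hS]

theorem not_mon_of_perfect {S : Type*} [Group S] (φ : S →* G3 F) (hS : commutator S = ⊤) (hM : ∀ s, φ s ∈ M)
    {B : G3 F} (h : M ≤ cjS B (Mon F)) (s : S) : φ s = 1 := by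
  obtain ⟨π, hπ⟩ := exists_pi2 h
  let ψ := φ.codRestrict M hM
  haveI : Group.IsSolvable (Equiv.Perm.sign : Equiv.Perm (Fin 3) →* ℤˣ).ker := Group.isSolvable_of_comm
    fun a b => Subtype.ext ((by decide +kernel : ∀ a b : Equiv.Perm (Fin 3), Equiv.Perm.sign a = 1 →
      Equiv.Perm.sign b = 1 → a * b = b * a) _ _ a.2 b.2)
  haveI : Group.IsSolvable (Equiv.Perm (Fin 3)) :=
    Group.isSolvable_of_ker_le_range (Subgroup.subtype _) Equiv.Perm.sign (Subgroup.range_subtype _).ge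
  have h1 : ∀ s, π (ψ s) = 1 := fun s => (range_eq_bot_of_perfect hS (π.comp ψ)).le ⟨s, rfl⟩
  haveI : Group.IsSolvable φ.range := Group.isSolvable_of_comm (by
    rintro ⟨_, a, rfl⟩ ⟨_, b, rfl⟩
    exact Subtype.ext (congrArg (fun u : M => u.1) (hπ.comm _ _ (h1 a) (h1 b))))
  exact congrArg Subtype.val ((range_eq_bot_of_perfect hS φ.rangeRestrict).le ⟨s, rfl⟩)

/-- groups that are subgroups of `S₆` modulo scalars -/
def A6P (M : Subgroup (G3 F)) : Prop :=
  Nat.card M ∣ 1080 ∧ ∃ π : M →* Equiv.Perm (Fin 6), ∀ g, π g = 1 ↔ g.1 ∈ scalars (Fin 3) F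

theorem A6P.cjS (h : A6P M) (B : G3 F) : A6P (cjS B M) := by
  obtain ⟨h1, π, h⟩ := h
  refine ⟨by rwa [card_cjS], π.comp (((MulAut.conj B⁻¹).toMonoidHom.comp (Subgroup.subtype _)).codRestrict _
    fun g => by simpa using mem_cjS.1 g.2), fun g => (h _).trans ⟨fun e => scal_conj (B := B) (by simpa using e),
      fun e => scalars_normal.conj_mem _ e _⟩⟩

theorem a6P_of [Finite F] (hM : M ≤ S3 F)
    (h : Nonempty ((M ⧸ (scalars (Fin 3) F).subgroupOf M) ≃* alternatingGroup (Fin 6))) : A6P M := by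
  obtain ⟨e⟩ := h
  refine ⟨?_, (Subgroup.subtype _).comp (e.toMonoidHom.comp (QuotientGroup.mk' _)), fun g => ?_⟩
  · have := card_dvd_three hM
    rwa [Nat.card_congr e.toEquiv, nat_card_alternatingGroup, Nat.card_fin] at this
  · simp [Subgroup.mem_subgroupOf]

/-! ### The subfield subgroups of `SL₃` -/

/-- companion matrices of determinant one -/
def cmp (a b : F) : M3 F := !![0, 0, 1; 1, 0, -b; 0, 1, a]

/-- elementary matrices -/
def el (a b : F) : M3 F := !![1, a, b; 0, 1, 0; 0, 0, 1]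

theorem det_cmp (a b : F) : (cmp a b).det = 1 := by simp [cmp, det_fin_three]

theorem det_el (a b : F) : (el a b).det = 1 := by simp [el, det_fin_three]

theorem el_pow (a b : F) (n : ℕ) : el a b ^ n = el (n * a) (n * b) := by
  induction n with
  | zero => ext i j; fin_cases i <;> fin_cases j <;> simp [el]
  | succ n ih =>
    rw [pow_succ, ih]
    ext i j; fin_cases i <;> fin_cases j <;> simp [el, mul_apply, Fin.sum_univ_three] <;> ring

/-- `M` contains the special linear group over `k` -/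
def Rat (M : Subgroup (G3 F)) (k : Subfield F) : Prop := ∀ m : M3 F, (∀ i j, m i j ∈ k) → m.det = 1 → Hm M m

theorem rat_of (h : subfieldSubgroup k 1 ⊓ S3 F ≤ M) : Rat M k := fun _ h1 h2 =>
  ((hm_sub (by simp [h2]) h1).inf (hm_S3 h2)).mono h

namespace Rat

variable (h : Rat M k)
include h

theorem cmp {a b : F} (ha : a ∈ k) (hb : b ∈ k) : Hm M (cmp a b) :=
  h _ (fun i j => by fin_cases i <;> fin_cases j <;> simp [T3.cmp, ha, hb]) (det_cmp a b)

theorem el {a b : F} (ha : a ∈ k) (hb : b ∈ k) : Hm M (el a b) :=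
  h _ (fun i j => by fin_cases i <;> fin_cases j <;> simp [T3.el, ha, hb]) (det_el a b)

theorem swp : Hm M (swp F) := h _ (fun i j => by fin_cases i <;> fin_cases j <;> simp [T3.swp]) det_swp

theorem irr : Irr M := by
  intro W hW
  refine or_iff_not_imp_left.2 fun h0 => ?_
  obtain ⟨w, hw, hw0⟩ := (Submodule.ne_bot_iff _).1 h0
  have hc : ∀ v ∈ W, ![v 2, v 0, v 1] ∈ W := fun v hv => by
    convert (h.cmp k.zero_mem k.zero_mem).mem hW hv using 1
    ext i; fin_cases i <;> simp [T3.cmp, mulVec, dotProduct, Fin.sum_univ_three]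
  have he : ∀ v ∈ W, v 1 ≠ 0 → Pi.single 0 1 ∈ W := fun v hv e => by
    convert W.smul_mem (v 1)⁻¹ (W.sub_mem ((h.el k.one_mem k.zero_mem).mem hW hv) hv) using 1
    ext i; fin_cases i <;> simp [T3.el, mulVec, dotProduct, Fin.sum_univ_three, vecHead, vecTail, e]
  have e0 : Pi.single 0 1 ∈ W := by
    by_contra hc'
    have e1 : w 1 = 0 := by_contra fun e => hc' (he _ hw e)
    have e0 : w 0 = 0 := by_contra fun e => hc' (he _ (hc _ hw) e)
    have e2 : w 2 = 0 := by_contra fun e => hc' (he _ (hc _ (hc _ hw)) e)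
    exact hw0 (by ext i; fin_cases i <;> assumption)
  refine eq_top_of_single fun i => ?_
  fin_cases i
  · exact e0
  · convert hc _ e0 using 1; ext i; fin_cases i <;> simp
  · convert hc _ (hc _ e0) using 1; ext i; fin_cases i <;> simp

theorem not_mon {B : G3 F} (hM : M ≤ cjS B (Mon F)) : False := by
  obtain ⟨π, hπ⟩ := exists_pi2 hM
  obtain ⟨a, ha, ea⟩ := h.el k.one_mem k.zero_mem
  obtain ⟨b, hb, eb⟩ := h.el k.zero_mem k.one_mem
  obtain ⟨c, hc, ec⟩ := h.el k.one_mem (k.neg_mem k.one_mem)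
  have key : ∀ (g : M) (x y : F), g.1.val = T3.el x y → π g = 1 → x = 0 ∧ y = 0 := fun g x y e h1 => by
    have := hπ.unip g h1 (by
      rw [e]; ext i j; fin_cases i <;> fin_cases j <;> simp [T3.el, pow_three, mul_apply, Fin.sum_univ_three])
    rw [this] at e
    exact ⟨by simpa [T3.el] using (congrFun (congrFun e 0) 1).symm, by simpa [T3.el] using (congrFun (congrFun e 0) 2).symm⟩
  have e1 : (⟨a, ha⟩ * ⟨b, hb⟩ : M) = ⟨b, hb⟩ * ⟨a, ha⟩ := Subtype.ext (Units.ext (by simp [ea, eb, T3.el]))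
  have e2 : (⟨c, hc⟩ * ⟨b, hb⟩ : M) = ⟨a, ha⟩ := Subtype.ext (Units.ext (by simp [ea, eb, ec, T3.el]))
  rcases (by decide +kernel : ∀ a b : Equiv.Perm (Fin 3), a * b = b * a → a = 1 ∨ b = 1 ∨ a * b = 1 ∨ a = b)
    (π ⟨a, ha⟩) (π ⟨b, hb⟩) (by rw [← map_mul, e1, map_mul]) with e | e | e | e
  · exact one_ne_zero (key _ _ _ ea e).1
  · exact one_ne_zero (key _ _ _ eb e).2
  · exact one_ne_zero (key (⟨a, ha⟩ * ⟨b, hb⟩) 1 1 (by simp [ea, eb, T3.el]) (by rwa [map_mul])).1
  · exact one_ne_zero (key _ _ _ ec (by rwa [← e2, map_mul, mul_eq_right] at e)).1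

theorem le {P : G3 F} (hM : M ≤ subfieldSubgroup k' P) : k ≤ k' := fun t ht => by
  simpa [T3.cmp, trace_fin_three, adjugate_fin_three] using (tr5 ((h.cmp ht k.one_mem).mono hM) (det_cmp _ _)).2.2

theorem not_sim {σ : F →+* F} {G : M3 F} (hG : IsUnit G) (hM : M ≤ similarityGroup (gform σ G)) : False := by
  obtain ⟨c, -, e, -⟩ := trF hG ((h.cmp k.one_mem k.zero_mem).mono hM) (det_cmp _ _)
  simp [T3.cmp, trace_fin_three, adjugate_fin_three] at e

theorem dvd_card {p : ℕ} [CharP F p] (hp : p.Prime) : p ∣ Nat.card M := by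
  obtain ⟨g, hg, e⟩ := h.el k.one_mem k.zero_mem
  haveI := Fact.mk hp
  rw [← show orderOf g = p from orderOf_eq_prime (Units.ext (by
    rw [Units.val_pow_eq_pow_val, e, el_pow, CharP.cast_eq_zero, zero_mul, zero_mul, Units.val_one]
    ext i j; fin_cases i <;> fin_cases j <;> simp [T3.el])) fun e1 => by
      simpa [e1, T3.el] using congrFun (congrFun e 0) 1]
  exact Subgroup.orderOf_dvd_natCard M hg

theorem seven (h2 : (2 : F) = 0) : 7 ∣ Nat.card M := by
  obtain ⟨g, hg, e⟩ := h.cmp k.zero_mem k.one_mem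
  haveI : Fact (Nat.Prime 7) := ⟨by norm_num⟩
  rw [← show orderOf g = 7 from orderOf_eq_prime (Units.ext (by
    rw [Units.val_pow_eq_pow_val, e, Units.val_one]
    ext i j; fin_cases i <;> fin_cases j <;> simp [T3.cmp, pow_succ, mul_apply, Fin.sum_univ_three] <;> grind))
      fun e1 => by simpa [e1, T3.cmp] using congrFun (congrFun e 0) 0]
  exact Subgroup.orderOf_dvd_natCard M hg

end Rat

end H11.T3
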