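import Mathlib
import Cfsg.Agent.Base
import Cfsg.Agent.Lib.Tab3.Hess
import Cfsg.Agent.Lib.Forms.Bridge

/-!
Diagonal subgroups of `SL₃`.
-/

set_option autoImplicit false

namespace H11.T3

open Matrix Cfsg Cfsg.Geo H10.Asch

theorem invol_pow {L : Type*} [Field L] [Finite L] {τ : L →+* L} (hne : τ ≠ RingHom.id L) (hτ : ∀ a, τ (τ a) = a) :
    ∃ Q : ℕ, Nat.card L = Q ^ 2 ∧ ∀ x, τ x = x ^ Q := by
  let k : Subfield L := τ.eqLocusField (RingHom.id L)
  have hk : ∀ x, x ∈ k ↔ τ x = x := fun _ => Iff.rfl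
  obtain ⟨a, ha⟩ : ∃ a, τ a ≠ a := by
    by_contra h'
    push Not at h'
    exact hne (RingHom.ext h')
  have hδ : a - τ a ≠ 0 := sub_ne_zero.mpr ha.symm
  have hc : Nat.card k = Nat.card (H28.traceZero τ) := by
    refine Nat.card_congr (Equiv.ofBijective (fun t => ⟨(a - τ a) * t.1, ?_⟩) ⟨?_, ?_⟩)
    · rw [H28.mem_traceZero, map_mul, map_sub, hτ, (hk _).1 t.2]; ring
    · exact fun s t hst => Subtype.ext (mul_left_cancel₀ hδ (congrArg Subtype.val hst))
    · rintro ⟨l, hl⟩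
      have hl' : τ l = -l := by rw [H28.mem_traceZero] at hl; linear_combination hl
      refine ⟨⟨l / (a - τ a), (hk _).2 ?_⟩, Subtype.ext (mul_div_cancel₀ _ hδ)⟩
      rw [map_div₀, map_sub, hτ, hl', ← neg_sub a, neg_div_neg_eq]
  have h1 : Nat.card L = Nat.card k ^ 2 := by rw [hc, H28.card_traceZero_sq hne hτ]
  refine ⟨_, h1, fun x => ?_⟩
  have := Fintype.ofFinite L
  haveI : U.IsSq L (Nat.card k) := ⟨by rw [← h1, Nat.card_eq_fintype_card]⟩
  have h2 : ∀ x, τ x = x ↔ U.cj (Nat.card k) x = x := fun x => H98.D3.mem_subfield_iff k x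
  have h3 := (h2 (x + τ x)).1 (by rw [map_add, hτ, add_comm])
  have h4 := (h2 (x * τ x)).1 (by rw [map_mul, hτ, mul_comm])
  rw [map_add] at h3
  rw [map_mul] at h4
  change τ x = U.cj (Nat.card k) x
  rcases mul_eq_zero.1 (show (U.cj (Nat.card k) x - x) * (U.cj (Nat.card k) x - τ x) = 0 by
    linear_combination U.cj (Nat.card k) x * h3 - h4) with e | e
  · rw [sub_eq_zero.1 e, (h2 x).2 (sub_eq_zero.1 e)]
  · exact (sub_eq_zero.1 e).symm

theorem card_le_of_fibers {α β : Type*} [Finite α] [Finite β] (f : α → β) (n : ℕ)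
    (h : ∀ b, Nat.card {a // f a = b} ≤ n) : Nat.card α ≤ n * Nat.card β := by
  classical
  have := Fintype.ofFinite α
  have := Fintype.ofFinite β
  rw [Nat.card_eq_fintype_card, Nat.card_eq_fintype_card]
  exact Finset.card_le_mul_card_image_of_maps_to (fun a _ => Finset.mem_univ (f a)) n fun b _ => by
    simpa only [Nat.card_eq_fintype_card, Fintype.card_subtype] using h b

variable {F : Type*} [Field F] {H M : Subgroup (G3 F)} {μ : Subgroup Fˣ}

/-- a diagonal matrix of determinant one -/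
def dg (x y : F) : M3 F := !![x, 0, 0; 0, y, 0; 0, 0, (x * y)⁻¹]

theorem det_dg (x y : Fˣ) : (dg (x : F) y).det = 1 := by
  simp [dg, det_fin_three]; field_simp

/-- `H` contains the monomial matrices with entries in `μ` -/
structure Tor (H : Subgroup (G3 F)) (μ : Subgroup Fˣ) : Prop where
  dg : ∀ x ∈ μ, ∀ y ∈ μ, Hm H (dg (x : F) y)
  cyc : Hm H (cyc F)
  swp : Hm H (swp F)

/-- the roots of unity -/
def rt (F : Type*) [Field F] (n : ℕ) : Subgroup Fˣ := (powMonoidHom n : Fˣ →* Fˣ).ker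

theorem mem_rt {n : ℕ} {x : Fˣ} : x ∈ rt F n ↔ (x : F) ^ n = 1 := by
  rw [rt, MonoidHom.mem_ker, powMonoidHom_apply, Units.ext_iff, Units.val_pow_eq_pow_val, Units.val_one]

theorem card_rt [Fintype F] {n : ℕ} (h : n ∣ Fintype.card F - 1) : Nat.card (rt F n) = n := by
  rw [rt, IsCyclic.card_powMonoidHom_ker, Nat.card_units, Nat.card_eq_fintype_card, Nat.gcd_eq_right h]

theorem exists_gen [Finite F] (h : 4 ≤ Nat.card μ) : ∃ x ∈ μ, (x : F) ^ 2 ≠ 1 ∧ (x : F) ^ 3 ≠ 1 := by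
  obtain ⟨x, hx⟩ := IsCyclic.exists_ofOrder_eq_natCard (α := μ)
  have key : ∀ n, 0 < n → n < 4 → (x.1 : F) ^ n ≠ 1 := fun n h0 h1 e => by
    have := Nat.le_of_dvd h0 (orderOf_dvd_of_pow_eq_one (show x ^ n = 1 from Subtype.ext (Units.ext (by simpa using e))))
    omega
  exact ⟨x, x.2, key 2 (by norm_num) (by norm_num), key 3 (by norm_num) (by norm_num)⟩

theorem tor_S3 (μ : Subgroup Fˣ) : Tor (S3 F) μ := ⟨fun x _ y _ => hm_S3 (det_dg x y), hm_S3 det_cyc, hm_S3 det_swp⟩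

theorem tor_Mon (μ : Subgroup Fˣ) : Tor (Mon F) μ := by
  refine ⟨fun x _ y _ => hm_Mon (by simp [det_dg]) 1 fun i j h => ?_,
    hm_Mon (by simp [det_cyc]) (finRotate 3) fun i j h => ?_, hm_Mon (by simp [det_swp]) (Equiv.swap 0 1) fun i j h => ?_⟩ <;>
    fin_cases i <;> fin_cases j <;> first | exact absurd (by decide) h | simp [dg, cyc, swp]

theorem tor_sub {k : Subfield F} (h : ∀ x ∈ μ, (x : F) ∈ k) : Tor (subfieldSubgroup k 1) μ := by
  refine ⟨fun x hx y hy => hm_sub (by simp [det_dg]) fun i j => ?_, hm_sub (by simp [det_cyc]) fun i j => ?_,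
    hm_sub (by simp [det_swp]) fun i j => ?_⟩ <;> fin_cases i <;> fin_cases j <;>
    simp [dg, cyc, swp, *, mul_mem]

theorem tor_GU [Fintype F] {q : ℕ} [U.IsSq F q] (h : μ ≤ rt F (q + 1)) : Tor (GU 3 F q) μ := by
  refine ⟨fun x hx y hy => hm_GU ?_, hm_GU ?_, hm_GU ?_⟩
  · have e1 := mem_rt.1 (h hx)
    have e2 := mem_rt.1 (h hy)
    rw [← U.mul_cj] at e1 e2
    ext i j; fin_cases i <;> fin_cases j <;> simp [dg, mul_apply, Fin.sum_univ_three, e1, e2]
    rw [eq_inv_of_mul_eq_one_right e1, eq_inv_of_mul_eq_one_right e2]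
    field_simp
  all_goals ext i j; fin_cases i <;> fin_cases j <;> simp [cyc, swp, mul_apply, Fin.sum_univ_three]

namespace Tor

theorem mono (h : Tor H μ) (hle : H ≤ M) : Tor M μ :=
  ⟨fun x hx y hy => (h.dg x hx y hy).mono hle, h.cyc.mono hle, h.swp.mono hle⟩

theorem inf (h : Tor H μ) (h' : Tor M μ) : Tor (H ⊓ M) μ :=
  ⟨fun x hx y hy => (h.dg x hx y hy).inf (h'.dg x hx y hy), h.cyc.inf h'.cyc, h.swp.inf h'.swp⟩

variable [Finite F] (h : Tor M μ)
include h

theorem irr (h4 : 4 ≤ Nat.card μ) : Irr M := by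
  obtain ⟨x, hx, h2, -⟩ := exists_gen h4
  have h1 : (x : F) ≠ 1 := fun e => h2 (by rw [e, one_pow])
  refine irr_of_diag h1 (fun e => h2 ?_) (fun e => h1 ?_) (h.dg x hx 1 μ.one_mem) h.cyc
  · rw [pow_two]; exact (mul_eq_one_iff_eq_inv₀ x.ne_zero).2 (by simpa using e)
  · simpa using e.symm

theorem card_le {k : Subfield F} (hk : ∀ m, Hm M m → m.det = 1 → m.adjugate.trace = m.trace → m.trace ∈ k) :
    Nat.card μ ≤ 2 * Nat.card k := by
  have key : ∀ x : μ, (x.1 : F) + (x.1 : F)⁻¹ ∈ k := fun x => by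
    have := hk _ (h.dg x x.2 1 μ.one_mem) (det_dg _ _) (by simp [T3.dg, adjugate_fin_three, trace_fin_three]; ring)
    convert sub_mem this (one_mem k) using 1
    simp [T3.dg, trace_fin_three]; ring
  refine card_le_of_fibers (fun x : μ => (⟨_, key x⟩ : k)) 2 fun b => ?_
  rcases isEmpty_or_nonempty {a : μ // (⟨_, key a⟩ : k) = b} with e | ⟨⟨a, ha⟩⟩
  · simp
  refine (Nat.card_le_card_of_injective (fun c : {a : μ // (⟨_, key a⟩ : k) = b} =>
    (⟨c.1, ?_⟩ : ({a, a⁻¹} : Set μ))) fun c d e =>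
    Subtype.ext (congrArg (fun u : ({a, a⁻¹} : Set μ) => u.1) e)).trans ?_
  · have e := congrArg Subtype.val (c.2.trans ha.symm)
    have h1 := c.1.1.ne_zero
    have h2 := a.1.ne_zero
    rcases mul_eq_zero.1 (show ((c.1.1 : F) - a.1) * (c.1.1 - (a.1 : F)⁻¹) = 0 by
      simp only at e; field_simp at e ⊢; linear_combination e) with e | e
    · exact Or.inl (Subtype.ext (Units.ext (sub_eq_zero.1 e)))
    · exact Or.inr (Subtype.ext (Units.ext (by simpa using sub_eq_zero.1 e)))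
  · exact (Set.ncard_insert_le _ _).trans (by simp)

theorem not_colO (h4 : 4 ≤ Nat.card μ) (hM : ColO M) : False := by
  obtain ⟨x, hx, h2, h3⟩ := exists_gen h4
  obtain ⟨G, hG, hM⟩ := hM
  have key : ∀ x ∈ μ, ∀ y ∈ μ, ∃ c : F, ∀ i j, G i j ≠ 0 →
      ![(x : F), y, (x * y)⁻¹] i * ![(x : F), y, (x * y)⁻¹] j = c := fun x hx y hy => by
    obtain ⟨c, -, -, e⟩ := trF hG ((h.dg x hx y hy).mono hM) (det_dg x y)
    refine ⟨c, fun i j hij => mul_right_cancel₀ hij ?_⟩
    have := congrFun (congrFun e i) j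
    rw [T3.dg] at this
    generalize ((x : F) * y)⁻¹ = z at this ⊢
    fin_cases i <;> fin_cases j <;> simp only [mul_apply, Fin.sum_univ_three] at this <;>
      simp [-mul_eq_mul_right_iff, -mul_eq_mul_left_iff] at this ⊢ <;> linear_combination this
  obtain ⟨a, ha⟩ := key x hx 1 μ.one_mem
  obtain ⟨b, hb⟩ := key 1 μ.one_mem x hx
  have h0 := x.ne_zero
  have hx1 : (x : F) * (x : F)⁻¹ = 1 := mul_inv_cancel₀ h0
  have aux : ∀ i j k : Fin 3, G 0 i * G 1 j * G 2 k ≠ 0 → G 0 i ≠ 0 ∧ G 1 j ≠ 0 ∧ G 2 k ≠ 0 := fun i j k e => by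
    simpa only [mul_ne_zero_iff, and_assoc] using e
  refine ((isUnit_iff_isUnit_det _).1 hG).ne_zero ?_
  have e1 : G 0 0 * G 1 1 * G 2 2 = 0 := by
    by_contra e
    obtain ⟨e0, e1, -⟩ := aux _ _ _ e
    have := (ha _ _ e0).trans (ha _ _ e1).symm
    exact h2 (by simpa [pow_two] using this)
  have e2 : G 0 0 * G 1 2 * G 2 1 = 0 := by
    by_contra e
    obtain ⟨e0, e1, -⟩ := aux _ _ _ e
    have := (ha _ _ e0).trans (ha _ _ e1).symm
    simp at this
    exact h3 (by linear_combination x * this + hx1)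
  have e3 : G 0 1 * G 1 0 * G 2 2 = 0 := by
    by_contra e
    obtain ⟨e0, -, e1⟩ := aux _ _ _ e
    have := (ha _ _ e0).trans (ha _ _ e1).symm
    simp at this
    exact h3 (by linear_combination x ^ 2 * this + (x * (x : F)⁻¹ + 1) * hx1)
  have e4 : G 0 1 * G 1 2 * G 2 0 = 0 := by
    by_contra e
    obtain ⟨e0, e1, -⟩ := aux _ _ _ e
    have := (ha _ _ e0).trans (ha _ _ e1).symm
    simp at this
    exact h2 (by linear_combination x * this + hx1)
  have e5 : G 0 2 * G 1 0 * G 2 1 = 0 := by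
    by_contra e
    obtain ⟨-, e0, e1⟩ := aux _ _ _ e
    have := (ha _ _ e0).trans (ha _ _ e1).symm
    simp at this
    exact h2 (by linear_combination x * this + hx1)
  have e6 : G 0 2 * G 1 1 * G 2 0 = 0 := by
    by_contra e
    obtain ⟨e0, e1, -⟩ := aux _ _ _ e
    have := (hb _ _ e0).trans (hb _ _ e1).symm
    simp at this
    exact h3 (by linear_combination -x * this + hx1)
  rw [det_fin_three, e1, e2, e3, e4, e5, e6]; ring

omit [Finite F] in
theorem not_col6 (h1 : -1 ∈ μ) (h2 : (2 : F) ≠ 0) {w : F} (hw : IsW w) {B : G3 F} (hM : M ≤ cjS B (NH F)) : False := by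
  obtain ⟨j, hj, ej⟩ := h.dg _ h1 _ h1
  obtain ⟨k, hk, ek⟩ := h.dg _ h1 _ μ.one_mem
  have h3 : (1 : F) ≠ -1 := fun e => h2 (by linear_combination e)
  have key : ∀ (g : G3 F) (a b : Fin 3), g.val a a = 1 → g.val b b = -1 → g ∉ scalars (Fin 3) F := fun g a b e1 e2 hg => by
    obtain ⟨c, hc⟩ := (mem_scalars_iff _).1 hg
    rw [hc] at e1 e2
    simp at e1 e2
    exact h3 (by simpa using congrArg Units.val (e1.symm.trans e2))
  have := four6 hw (hM hj) (hM hk) (Units.ext ?_) (Units.ext ?_) (Units.ext ?_)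
  rcases this with e | e | e
  · exact key j 2 0 (by simp [ej, T3.dg]) (by simp [ej, T3.dg]) e
  · exact key k 1 0 (by simp [ek, T3.dg]) (by simp [ek, T3.dg]) e
  · exact key _ 0 1 (by simp [ej, ek, T3.dg]) (by simp [ej, ek, T3.dg]) e
  all_goals ext a b; fin_cases a <;> fin_cases b <;> simp [pow_two, ej, ek, T3.dg]

omit [Finite F] in
theorem card_dvd : Nat.card μ ^ 2 ∣ Nat.card M := by
  let φ : μ × μ →* G3 F := MonoidHom.mk' (fun x => monGL 1 ![x.1.1, x.2.1, (x.1.1 * x.2.1)⁻¹]) fun x y => by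
    rw [monGL_mul, mul_one]
    congr 1
    funext i; fin_cases i <;> simp [mul_comm, mul_left_comm, mul_assoc]
  have e : ∀ x : μ × μ, (φ x).val = T3.dg (x.1.1 : F) x.2.1 := fun x => by
    ext i j; fin_cases i <;> fin_cases j <;> simp [φ, coe_monGL, mon_apply, T3.dg]
  have hi : Function.Injective φ := fun x y hxy => by
    have := (e x).symm.trans ((congrArg Units.val hxy).trans (e y))
    exact Prod.ext (Subtype.ext (Units.ext (congrFun (congrFun this 0) 0)))
      (Subtype.ext (Units.ext (congrFun (congrFun this 1) 1)))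
  rw [pow_two, ← Nat.card_prod, Nat.card_congr (MonoidHom.ofInjective hi).toEquiv]
  refine Subgroup.card_dvd_of_le ?_
  rintro _ ⟨x, rfl⟩
  obtain ⟨g, hg, eg⟩ := h.dg _ x.1.2 _ x.2.2
  rwa [show φ x = g from Units.ext ((e x).trans eg.symm)]

end Tor

end H11.T3
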