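import Mathlib
import Cfsg.Agent.Base
import Cfsg.Agent.Lib.Tab3.Tor

/-!
Singer cycles in `SL₃` and `SU₃`.
-/

set_option autoImplicit false

namespace H11.T3

open Matrix Cfsg Cfsg.Geo H10.Asch

variable {F : Type*} [Field F] {M : Subgroup (G3 F)} {K K' : Subalgebra F (M3 F)} {s : G3 F} {m : M3 F}

theorem fld_le [Finite F] (hK : IsFieldSubalgebra 3 K) (h1 : m ∈ K) (h2 : m ∈ K') (h3 : ∀ c : F, m ≠ c • 1) :
    K ≤ K' := by
  haveI : Finite (G3 F) := finite_GL
  have hL : IsFieldSubalgebra (Module.finrank F (K ⊓ K' :)) (K ⊓ K') := ⟨fun x hx y hy => hK.comm x hx.1 y hy.1,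
    fun x hx h0 => by
      obtain ⟨y, -, e⟩ := hK.inv x hx.1 h0
      obtain ⟨u, rfl⟩ := IsUnit.of_mul_eq_one _ e
      refine ⟨_, Subalgebra.pow_mem _ hx (orderOf u - 1), ?_⟩
      rw [← pow_succ', Nat.sub_add_cancel (orderOf_pos u), ← Units.val_pow_eq_pow_val, pow_orderOf_eq_one, Units.val_one],
    rfl⟩
  rcases (Nat.dvd_prime Nat.prime_three).1 (IsFieldSubalgebra.dvd_card hL) with e | e
  · obtain ⟨c, hc⟩ := scalar_of_finrank_eq_one e m ⟨h1, h2⟩
    exact absurd hc (h3 c)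
  · exact (Subalgebra.eq_of_le_of_finrank_eq inf_le_left (e.trans hK.finrank_eq.symm)).ge.trans inf_le_right

theorem dvd_of_scalar (hs : s ∈ S3 F) {n : ℕ} {c : F} (h : (s ^ n).val = c • 1) : orderOf s ∣ n * 3 :=
  orderOf_dvd_of_pow_eq_one (Units.ext (by
    rw [pow_mul, Units.val_pow_eq_pow_val, h, smul_pow,
      cube_of_scalar (mem_specialLinear.1 ((S3 F).pow_mem hs n)) h, one_pow, one_smul, Units.val_one]))

theorem tr_cube' (hd : m.det = 1) : (m * m * m).adjugate.trace =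
    m.adjugate.trace ^ 3 - 3 * (m.trace * m.adjugate.trace) + 3 := by
  rw [adjugate_mul_distrib, adjugate_mul_distrib, ← mul_assoc, tr_cube, adj_adj hd, det_adj hd, mul_one, mul_comm m.trace]

/-- `M` contains an element of the field `K` -/
structure Sing (M : Subgroup (G3 F)) (K : Subalgebra F (M3 F)) (s : G3 F) : Prop where
  fld : IsFieldSubalgebra 3 K
  le : M ≤ S3 F
  mem : s ∈ M
  mem' : s.val ∈ K

namespace Sing

variable (h : Sing M K s)
include h

theorem dvd_of_eig {n : ℕ} {c : F} (e : ((s ^ n).val - c • 1).det = 0) : orderOf s ∣ n * 3 :=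
  dvd_of_scalar (h.le h.mem) (fld_scalar h.fld (K.pow_mem h.mem' n) e)

theorem irr [Finite F] (h3 : ¬ orderOf s ∣ 3) : Irr M := by
  intro W hW
  let K' : Subalgebra F (M3 F) :=
    { carrier := {k | ∀ v ∈ W, k *ᵥ v ∈ W}
      mul_mem' := fun ha hb v hv => by rw [← mulVec_mulVec]; exact ha _ (hb v hv)
      add_mem' := fun ha hb v hv => by rw [add_mulVec]; exact W.add_mem (ha v hv) (hb v hv)
      algebraMap_mem' := fun c v hv => by
        rw [Algebra.algebraMap_eq_smul_one, smul_mulVec, one_mulVec]; exact W.smul_mem c hv }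
  have h1 : K ≤ K' := fld_le h.fld h.mem' (hW s h.mem) fun c e =>
    h3 (dvd_of_scalar (h.le h.mem) (n := 1) (by rw [pow_one, e]))
  refine or_iff_not_imp_left.2 fun h0 => eq_top_iff.2 fun w _ => ?_
  obtain ⟨v, hv, hv0⟩ := (Submodule.ne_bot_iff _).1 h0
  obtain ⟨k, hk, rfl⟩ := IsFieldSubalgebra.exists_mulVec_eq (K := K) h.fld hv0 w
  exact h1 hk v hv

theorem mon {B : G3 F} (hM : M ≤ cjS B (Mon F)) : orderOf s ∣ 18 := by
  obtain ⟨π, hπ⟩ := exists_pi2 hM
  obtain ⟨c, hc⟩ := hπ.eig (⟨s, h.mem⟩ ^ 6) (by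
    rw [map_pow]; exact (by decide +kernel : ∀ σ : Equiv.Perm (Fin 3), σ ^ 6 = 1) _)
  exact h.dvd_of_eig (n := 6) hc

theorem col3 [Finite F] (hK' : IsFieldSubalgebra 3 K') (hM : M ≤ subalgebraNormalizer K') (h9 : ¬ orderOf s ∣ 9) :
    K' = K :=
  Subalgebra.eq_of_le_of_finrank_eq (fld_le hK' (cube_mem hK' (hM h.mem)) (K.pow_mem h.mem' 3) fun _ e =>
    h9 (dvd_of_scalar (h.le h.mem) (n := 3) e)) (hK'.finrank_eq.trans h.fld.finrank_eq.symm)

theorem colO (hM : ColO M) : orderOf s ∣ 3 := by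
  obtain ⟨c, hc⟩ := hM.eig ⟨s, h.mem, rfl⟩ (mem_specialLinear.1 (h.le h.mem))
  exact h.dvd_of_eig (n := 1) (by rw [pow_one, hc])

theorem col6 {w : F} (hw : IsW w) {B : G3 F} (hM : M ≤ cjS B (NH F)) : orderOf s ∣ 108 := by
  obtain ⟨c, hc⟩ := (mem_scalars_iff _).1 (pow36 hw (hM h.mem))
  exact dvd_of_scalar (h.le h.mem) hc

theorem dvd_card : orderOf s ∣ Nat.card M := Subgroup.orderOf_dvd_natCard M h.mem

theorem card_le [Finite F] {β : Type*} [Finite β] (a b : β → F)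
    (hM : ∀ m, Hm M m → m.det = 1 → ∃ y, m.trace ^ 3 - 3 * (m.trace * m.adjugate.trace) + 3 = a y ∧
      m.adjugate.trace ^ 3 - 3 * (m.trace * m.adjugate.trace) + 3 = b y) : orderOf s ≤ 9 * Nat.card β := by
  haveI : Finite (G3 F) := finite_GL
  have key : ∀ g : Subgroup.zpowers (s ^ 3), ∃ y, g.1.val.trace = a y ∧ g.1.val.adjugate.trace = b y := by
    rintro ⟨_, n, rfl⟩
    have hd := mem_specialLinear.1 (h.le (M.zpow_mem h.mem n))
    obtain ⟨y, h1, h2⟩ := hM _ ⟨_, M.zpow_mem h.mem n, rfl⟩ hd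
    have e : ((s ^ 3) ^ n).val = (s ^ n).val * (s ^ n).val * (s ^ n).val := by
      rw [← Units.val_mul, ← Units.val_mul, ← pow_three', ← zpow_natCast, ← zpow_natCast, zpow_comm]
    exact ⟨y, by simp only [e]; rw [tr_cube, hd, mul_one, h1], by simp only [e]; rw [tr_cube' hd, h2]⟩
  choose f hf using key
  have h1 : orderOf s ≤ 3 * orderOf (s ^ 3) :=
    Nat.le_of_dvd (Nat.mul_pos (by norm_num) (orderOf_pos _))
      (orderOf_dvd_of_pow_eq_one (by rw [pow_mul, pow_orderOf_eq_one]))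
  have h2 := card_le_of_fibers f 3 fun y => by
    classical
    letI := (isField_subalgebra h.fld.comm h.fld.inv).toField
    have hK : ∀ g : Subgroup.zpowers (s ^ 3), g.1.val ∈ K := fun g => by
      obtain ⟨n, hn⟩ := mem_powers_iff_mem_zpowers.2 g.2
      rw [← show (s ^ 3) ^ n = _ from hn, ← pow_mul, Units.val_pow_eq_pow_val]
      exact K.pow_mem h.mem' _
    let p : Polynomial K := (⟨1, -algebraMap F K (a y), algebraMap F K (b y), -1⟩ : Cubic K).toPoly
    have hp : p ≠ 0 := Cubic.ne_zero_of_a_ne_zero one_ne_zero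
    refine (Nat.card_le_card_of_injective (fun g : {g // f g = y} => (⟨⟨_, hK g.1⟩, ?_⟩ : p.roots.toFinset))
      fun c d e => Subtype.ext (Subtype.ext (Units.ext
        (congrArg (fun u : p.roots.toFinset => (u.1 : M3 F)) e)))).trans ?_
    · rw [Multiset.mem_toFinset, Polynomial.mem_roots hp, Polynomial.IsRoot.def]
      simp only [p, Cubic.toPoly, Polynomial.eval_add, Polynomial.eval_mul, Polynomial.eval_C, Polynomial.eval_pow,
        Polynomial.eval_X, one_mul, neg_mul, ← Algebra.smul_def]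
      refine Subtype.ext ?_
      have e := H98.D3.cayley3 g.1.1.val
      rw [(hf _).1, (hf _).2, g.2, mem_specialLinear.1 (h.le ((Subgroup.zpowers_le.2 (M.pow_mem h.mem 3)) g.1.2))] at e
      change g.1.1.val ^ 3 + -(a y • g.1.1.val ^ 2) + b y • g.1.1.val + -1 = 0
      rw [pow_three', e, pow_two]
      module
    · rw [Nat.card_eq_fintype_card, Fintype.card_coe]
      exact (Multiset.toFinset_card_le _).trans ((Polynomial.card_roots' p).trans (Cubic.natDegree_of_a_ne_zero one_ne_zero).le)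
  rw [Nat.card_zpowers] at h2
  omega

theorem col5 [Finite F] {k : Subfield F} {P : G3 F} (hM : M ≤ subfieldSubgroup k P) :
    orderOf s ≤ 9 * Nat.card k ^ 2 := by
  rw [pow_two, ← Nat.card_prod]
  refine h.card_le (fun y : k × k => y.1) (fun y => y.2) fun m hm hd => ?_
  obtain ⟨h1, h2, h3⟩ := tr5 (hm.mono hM) hd
  have h4 : (3 : F) ∈ k := natCast_mem k 3
  exact ⟨⟨⟨_, add_mem (sub_mem h1 (mul_mem h4 h3)) h4⟩, ⟨_, add_mem (sub_mem h2 (mul_mem h4 h3)) h4⟩⟩, rfl, rfl⟩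

theorem colU [Finite F] {σ : F →+* F} (hσ : ∀ a, σ (σ a) = a) {G : M3 F} (hG : IsUnit G) (hh : cT σ G = G)
    (hM : M ≤ similarityGroup (gform σ G)) {k : Subfield F}
    (hk : ∀ m, Hm M m → m.det = 1 → m.trace ^ 3 ∈ k ∧ m.trace * m.adjugate.trace ∈ k) :
    orderOf s ≤ 9 * Nat.card k := by
  refine h.card_le (fun y : k => y.1) (fun y => σ y.1) fun m hm hd => ?_
  obtain ⟨h1, h3⟩ := hk m hm hd
  have h4 : (3 : F) ∈ k := natCast_mem k 3
  refine ⟨⟨_, add_mem (sub_mem h1 (mul_mem h4 h3)) h4⟩, rfl, ?_⟩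
  obtain ⟨c, c3, e1, e2, -⟩ := trU hσ hG hh (hm.mono hM) hd
  have e3 := congrArg σ e1
  rw [hσ, map_mul, e2] at e3
  simp only [map_add, map_sub, map_mul, map_pow, map_ofNat, e1]
  linear_combination -m.adjugate.trace ^ 3 * c3 - 3 * m.adjugate.trace * e3

end Sing

theorem exists_sing [Fintype F] (hK : IsFieldSubalgebra 3 K) {n : ℕ}
    (hn : n ∣ Fintype.card F ^ 2 + Fintype.card F + 1) :
    ∃ s ∈ subalgebraNormalizer K ⊓ S3 F, s.val ∈ K ∧ orderOf s = n := by
  obtain ⟨r, hr⟩ : ∃ r, Fintype.card F = r + 1 := ⟨_, (Nat.sub_add_cancel Fintype.card_pos).symm⟩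
  have h0 : 0 < r := by have := Fintype.one_lt_card (α := F); omega
  have e : Fintype.card F ^ 3 - 1 = (Fintype.card F - 1) * (Fintype.card F ^ 2 + Fintype.card F + 1) := by
    rw [hr, Nat.add_sub_cancel]; exact Nat.sub_eq_of_eq_add (by ring)
  obtain ⟨z, hz, h1, -⟩ := IsFieldSubalgebra.exists_orderOf hK (k := n) (e ▸ hn.mul_left _)
  have h2 := IsFieldSubalgebra.det_smul_one (K := K) hK hz
  obtain ⟨c, hc⟩ := hn
  rw [Fintype.card_fin, e, Nat.mul_div_cancel_left _ (by omega), hc, pow_mul, ← h1, pow_orderOf_eq_one, one_pow] at h2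
  have h3 : z.det = 1 := by simpa using congrFun (congrFun h2 0) 0
  obtain ⟨s, hs, rfl⟩ := hm_S3 h3
  refine ⟨s, ⟨fun k => ?_, hs⟩, hz, by rw [← orderOf_units, h1]⟩
  change _ ↔ cj s k ∈ K
  refine ⟨fun hk => by rwa [(cj_eq_iff s k k).2 (hK.comm _ hz _ hk)], fun hk => ?_⟩
  rwa [(cj s).injective ((cj_eq_iff s _ _).2 (hK.comm _ hz _ hk))] at hk

theorem mem_GU_of_pow [Fintype F] {q : ℕ} [U.IsSq F q] (hK : IsFieldSubalgebra 3 K)
    (hA : IsAdjointClosedFor (hermForm 3 F q) K) (hs : s.val ∈ K) (h : s ^ (q ^ 3 + 1) = 1) : s ∈ GU 3 F q := by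
  haveI : Finite (M3 F) := finite_matrix
  letI : Field K := (isField_subalgebra hK.comm hK.inv).toField
  have hadj : ∀ x ∈ K, cT (U.cj q) x ∈ K := fun x hx => by
    obtain ⟨y, hy, e⟩ := hA x hx
    simp only [herm_eq, gform_mulVec_left, gform_mulVec_right, mul_one, one_mul] at e
    convert hy
    ext i j
    rw [cT_apply, ← transpose_apply x, gform_inj e, map_apply, U.cj_cj]
  let τ : K →+* K :=
    { toFun := fun x => ⟨_, hadj x.1 x.2⟩
      map_one' := Subtype.ext (cT_one _)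
      map_mul' := fun x y => Subtype.ext (by
        change cT _ (x.1 * y.1) = cT _ x.1 * cT _ y.1
        rw [hK.comm _ x.2 _ y.2, cT_mul])
      map_zero' := Subtype.ext (by ext; simp [cT_apply])
      map_add' := fun x y => Subtype.ext (cT_add _ _ _) }
  obtain ⟨Q, h1, h2⟩ := invol_pow (τ := τ) (fun e => by
    obtain ⟨a, ha⟩ := U.exists_cj_ne F q
    have := congrArg (fun f : K →+* K => (f (a • 1)).1 0 0) e
    exact ha (by simpa [τ, cT_apply] using this)) fun x => Subtype.ext (cT_cT U.cj_cj _)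
  rw [Module.natCard_eq_pow_finrank (K := F), hK.finrank_eq, Nat.card_eq_fintype_card, U.IsSq.card_eq (q := q),
    ← pow_mul, mul_comm, pow_mul, Nat.pow_left_inj two_ne_zero] at h1
  have h3 : cT (U.cj q) s.val * s.val = 1 := by
    rw [show cT (U.cj q) s.val = s.val ^ Q from congrArg Subtype.val (h2 ⟨_, hs⟩), ← h1, ← pow_succ,
      ← Units.val_pow_eq_pow_val, h, Units.val_one]
  have h4 := congrArg transpose h3
  rwa [transpose_mul, cT, transpose_transpose, transpose_one, ← mem_GU] at h4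

end H11.T3
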