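import Mathlib
import Cfsg.Agent.Base
import Cfsg.Agent.Lib.Tab3.Rows

/-!
Unitary subfield subgroups, and the reducible maximal subgroups of `SU₃`.
-/

set_option autoImplicit false

namespace H11.T3

open Matrix Cfsg Cfsg.Geo H10.Asch

variable {F : Type*} [Field F] {H M : Subgroup (G3 F)} {k k' : Subfield F}

theorem ColO.mono (h : ColO M) (hle : H ≤ M) : ColO H := by
  obtain ⟨G, hG, h⟩ := h
  exact ⟨G, hG, hle.trans h⟩

theorem exists_triple (K : Type*) [Field K] [Fintype K] (q : ℕ) [U.IsSq K q] (c : K) :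
    ∃ (d : K) (u w v : Fin 3 → K), U.cj q d = -d ∧ hermForm 3 K q u u = 0 ∧ hermForm 3 K q w w = 0 ∧
      hermForm 3 K q v v = 0 ∧
      d * hermForm 3 K q w u * (d * hermForm 3 K q v w * (d * hermForm 3 K q u v)) = c := by
  obtain ⟨d, hd0, hd⟩ := U.exists_trace_zero K q
  have hT := U.nondeg_top (q := q) (n := 3) (F := K)
  obtain ⟨u, -, hu, hu0⟩ := hT.exists_isotropic (by rw [U.finrank_top']; omega)
  obtain ⟨v, -, hv0, huv⟩ := hT.exists_partner trivial hu hu0 1 one_ne_zero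
  have hvu := U.form_eq_one_symm huv
  have hP := hT.perp_pair trivial trivial hu0 hv0 (huv ▸ one_ne_zero)
  have h1 := U.finrank_le_perp (q := q) (⊤ : Submodule K (Fin 3 → K)) u
  have h2 := U.finrank_le_perp (q := q) (U.perp q (⊤ : Submodule K (Fin 3 → K)) u) v
  rw [U.finrank_top'] at h1
  obtain ⟨x, ⟨⟨-, hxu⟩, hxv⟩, hx⟩ := hP.exists_norm (by omega) (c := -(c / d ^ 3 + U.cj q (c / d ^ 3)))
    (by rw [map_neg, U.cj_trace])
  replace hxu : hermForm 3 K q x u = 0 := hxu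
  replace hxv : hermForm 3 K q x v = 0 := hxv
  have hux := U.form_eq_zero_symm hxu
  have hvx := U.form_eq_zero_symm hxv
  refine ⟨d, u, u + (c / d ^ 3) • v + x, v, hd, hu0, ?_, hv0, ?_⟩ <;>
    simp only [U.form_add_left, U.form_add_right, U.form_smul_left, U.form_smul_right, hu0, hv0, huv, hvu, hxu,
      hxv, hux, hvx, hx]
  · ring
  · field_simp; ring

variable [Fintype F] {q : ℕ} [U.IsSq F q]

/-- `M` contains the special unitary group over the subfield `k` with `q₀ ^ 2` elements -/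
structure Uni (M : Subgroup (G3 F)) (q : ℕ) (k : Subfield F) (q₀ : ℕ) : Prop where
  card : Nat.card k = q₀ ^ 2
  pow : ∀ x ∈ k, x ^ q = x ^ q₀
  le : subfieldSubgroup k 1 ⊓ SU3 F q ≤ M

theorem uni_top (h : SU3 F q ≤ M) : Uni M q ⊤ q :=
  ⟨by rw [Nat.card_congr Subfield.topEquiv.toEquiv, Nat.card_eq_fintype_card, U.IsSq.card_eq (q := q)], fun _ _ => rfl, inf_le_right.trans h⟩

theorem exists_q0 {r : ℕ} (hr : Odd r) (hk : Fintype.card F = Nat.card k ^ r) :
    ∃ q₀, 2 ≤ q₀ ∧ q = q₀ ^ r ∧ Nat.card k = q₀ ^ 2 ∧ ∀ x ∈ k, x ^ q = x ^ q₀ := by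
  obtain ⟨Q, h1, h2⟩ := invol_pow (cjk_ne (q := q) hr hk) fun a => Subtype.ext (U.cj_cj a.1)
  refine ⟨Q, ?_, ?_, h1, fun x hx => congrArg Subtype.val (h2 ⟨x, hx⟩)⟩
  · have := Finite.one_lt_card (α := k)
    by_contra hc
    obtain rfl | rfl : Q = 0 ∨ Q = 1 := by omega
    all_goals omega
  · rw [U.IsSq.card_eq (q := q), h1, ← pow_mul, mul_comm, pow_mul] at hk
    exact Nat.pow_left_injective two_ne_zero hk

namespace Uni

variable {q₀ : ℕ} (h : Uni M q k q₀)
include h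

omit [U.IsSq F q] in
theorem isSq [Fintype k] : U.IsSq k q₀ := ⟨by rw [← Nat.card_eq_fintype_card, h.card]⟩

omit [U.IsSq F q] in
theorem two_le : 2 ≤ q₀ := by
  haveI := Fintype.ofFinite k
  haveI := h.isSq
  exact U.two_le_q k q₀

omit [U.IsSq F q] in
theorem card_mu : Nat.card (rt F (q₀ + 1)) = q₀ + 1 := by
  refine card_rt (Dvd.dvd.trans ⟨q₀ - 1, (Nat.sq_sub_sq q₀ 1)⟩ ?_)
  have := Subgroup.card_dvd_of_injective (Units.map k.subtype.toMonoidHom) (Units.map_injective Subtype.val_injective)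
  rwa [Nat.card_units, Nat.card_units, h.card, Nat.card_eq_fintype_card] at this

theorem tor : Tor M (rt F (q₀ + 1)) := by
  have hk : ∀ x ∈ rt F (q₀ + 1), (x : F) ∈ k := fun x hx => by
    have := h.two_le
    rw [H98.D3.mem_subfield_iff, h.card, show q₀ ^ 2 = (q₀ + 1) * (q₀ - 1) + 1 by
      rw [← Nat.sq_sub_sq, one_pow, Nat.sub_add_cancel (by nlinarith)], pow_succ, pow_mul, mem_rt.1 hx, one_pow,
      one_mul]
  refine ((tor_sub hk).inf ((tor_GU fun x hx => mem_rt.2 ?_).inf (tor_S3 _))).mono h.le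
  rw [pow_succ, h.pow _ (hk x hx), ← pow_succ, mem_rt.1 hx]

theorem hess (e : q₀ = 2) : ∃ w, Hess M w := by
  subst e
  obtain ⟨w, hw⟩ := exists_isW (F := F) (by
    have := Subgroup.card_subgroup_dvd_card (rt F (2 + 1))
    rwa [h.card_mu, Nat.card_units, Nat.card_eq_fintype_card] at this)
  have hk : w ∈ k := by
    rw [H98.D3.mem_subfield_iff, h.card]
    linear_combination w * hw.cube
  have hq : q % 3 = 2 := by
    have h1 := h.pow w hk
    rw [← Nat.div_add_mod q 3, pow_add, pow_mul, hw.cube, one_pow, one_mul] at h1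
    obtain e | e | e : q % 3 = 0 ∨ q % 3 = 1 ∨ q % 3 = 2 := by omega
    · rw [e, pow_zero] at h1; exact absurd h1.symm hw.sq_ne
    · rw [e, pow_one] at h1; exact absurd h1 hw.ne_sq
    · exact e
  exact ⟨w, ((hw.hess_sub hk).inf ((hw.hess_GU hq).inf hw.hess_S3)).mono h.le⟩

theorem irr : Irr M := by
  rcases h.two_le.eq_or_lt with e | e
  · obtain ⟨w, hw⟩ := h.hess e.symm
    exact hw.irr
  · exact h.tor.irr (by rw [h.card_mu]; omega)

theorem not_colO (hM : ColO M) : False := by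
  rcases h.two_le.eq_or_lt with e | e
  · obtain ⟨w, hw⟩ := h.hess e.symm
    exact hw.not_colO hM
  · exact h.tor.not_colO (by rw [h.card_mu]; omega) hM

theorem herm_coe [Fintype k] [U.IsSq k q₀] (u v : Fin 3 → k) :
    hermForm 3 F q (fun i => u i) (fun i => v i) = hermForm 3 k q₀ u v := by
  simp [U.form_def, U.cj_apply, h.pow]

theorem not_mon {B : G3 F} (hM : M ≤ cjS B (Mon F)) : False := by
  rcases h.two_le.eq_or_lt with e | e
  · obtain ⟨w, hw⟩ := h.hess e.symm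
    exact hw.not_mon hM
  haveI := Fintype.ofFinite k
  haveI := h.isSq
  let φ := (GeneralLinearGroup.map k.subtype).comp (suToGL 3 k q₀)
  have hφ : ∀ s, (φ s).val = s.1.1.map k.subtype := fun s => rfl
  have h1 := not_mon_of_perfect φ (U.commutator_SU_eq_top le_rfl (by omega)) (fun s => h.le ⟨?_, ?_, ?_⟩) hM
  · obtain ⟨g, hg, e⟩ := ((tor_GU (F := k) (q := q₀) le_rfl).inf (tor_S3 _)).swp
    obtain ⟨s, rfl⟩ := range_suToGL.ge hg
    have := hφ s
    rw [h1, show s.1.1 = _ from e] at this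
    simpa [swp] using congrFun (congrFun this 0) 0
  · exact mem_subfieldSubgroup_iff.2 ⟨1, one_ne_zero, fun i j => by
      rw [inv_one, cj_one, one_mul, hφ]; exact (s.1.1 i j).2⟩
  · have := congrArg (fun m => m.map k.subtype) (mem_GU.1 (suToGL_mem s).1)
    simp only [Matrix.map_mul, Matrix.map_one _ (map_zero _) (map_one _)] at this
    refine mem_GU.2 (Eq.trans ?_ this)
    congr 1
    ext i j
    exact h.pow _ (s.1.1 i j).2
  · refine mem_specialLinear.2 ?_
    rw [hφ, ← RingHom.mapMatrix_apply, ← RingHom.map_det, s.1.2, map_one]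

theorem sub_le {P : G3 F} (hM : M ≤ subfieldSubgroup k' P) : k ≤ k' := fun c hc => by
  haveI := Fintype.ofFinite k
  haveI := h.isSq
  obtain ⟨d, u, w, v, hd, hu, hw, hv, e⟩ := exists_triple k q₀ ⟨c, hc⟩
  have hd' : U.cj q (d : F) = -d := (h.pow _ d.2).trans (congrArg Subtype.val hd)
  have iso : ∀ u : Fin 3 → k, hermForm 3 k q₀ u u = 0 → hermForm 3 F q (fun i => u i) (fun i => u i) = 0 :=
    fun u hu => by rw [h.herm_coe, hu]; rfl
  have mem : ∀ u : Fin 3 → k, hermForm 3 k q₀ u u = 0 →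
      suToGL 3 F q (U.tv q (fun i => u i) d) ∈ subfieldSubgroup k' P := fun u hu =>
    hM (h.le ⟨mem_subfieldSubgroup_iff.2 ⟨1, one_ne_zero, fun i j => by
      rw [inv_one, cj_one, one_mul, coe_suToGL, U.tv_val (iso u hu) hd']
      simp only [unitaryTransvection, Matrix.add_apply, one_apply, Matrix.smul_apply, vecMulVec_apply, smul_eq_mul]
      exact add_mem (by split_ifs <;> simp) (mul_mem d.2 (mul_mem (u i).2 (pow_mem (u j).2 _)))⟩, suToGL_mem _⟩)
  have := (isTv0_su (iso u hu) hd').triple_mem (isTv0_su (iso w hw) hd') (isTv0_su (iso v hv) hd') (mem u hu)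
    (mem w hw) (mem v hv)
  simp only [LinearMap.smul_apply, U.formL_apply, smul_eq_mul, h.herm_coe] at this
  convert this using 1
  exact (congrArg Subtype.val e).symm

end Uni

/-! ### Frames -/

theorem nf2u {D : Fin 3 → Submodule F (Fin 3 → F)} (hD : IsNondegenerateMDecomposition (hermForm 3 F q) 1 D) :
    ∃ B ∈ GU 3 F q, decompositionStabilizer D = cjS B (Mon F) := by
  have : ∀ i, ∃ v ∈ D i, hermForm 3 F q v v = 1 := fun i =>
    U.Nondeg.exists_norm (fun x hx h0 => (hD.nondegenerate i x hx h0).2) (hD.decomp.finrank_eq i).ge (map_one _)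
  choose v h1 h2 using this
  obtain ⟨B, hB, rfl⟩ := exists_fr hD.decomp h1 fun i e => by simpa [e, U.form_zero_left] using h2 i
  refine ⟨B, mem_GU.2 ?_, stab_fr B⟩
  ext i j
  have : hermForm 3 F q (v i) (v j) = if i = j then 1 else 0 := by
    split_ifs with e
    · rw [e, h2]
    · exact hD.orthogonal i j e _ (h1 i) _ (h1 j)
  simpa [hB, mul_apply, one_apply, U.form_def] using this

/-! ### Reducible subgroups -/

omit [U.IsSq F q] in
theorem mem_stab {W : Submodule F (Fin 3 → F)} {g : G3 F} (h : ∀ v ∈ W, g.val *ᵥ v ∈ W) : g ∈ subspaceStabilizer W := by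
  haveI : Finite (G3 F) := finite_GL
  refine le_subspaceStabilizer (H := Subgroup.zpowers g) (fun x hx => ?_) (Subgroup.mem_zpowers g)
  obtain ⟨n, rfl⟩ := mem_powers_iff_mem_zpowers.2 hx
  induction n with
  | zero => simp
  | succ n ih =>
    intro v hv
    simpa [pow_succ, ← mulVec_mulVec] using ih (Subgroup.npow_mem_zpowers g n) _ (h v hv)

theorem max_tv {W : Submodule F (Fin 3 → F)} (hq : q ≠ 2) (h1 : W ≠ ⊥) (h2 : W ≠ ⊤)
    (h : ∀ N : Subgroup (SU 3 F q), (∀ s : SU 3 F q, (∀ v ∈ W, s.1.1 *ᵥ v ∈ W) → s ∈ N) →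
      ∀ g ∈ N, ∀ v ∈ W, g.1.1 *ᵥ v ∉ W → ∀ w, hermForm 3 F q w w = 0 → ∀ c, U.cj q c = -c → U.tv q w c ∈ N) :
    IsMaximalIn (SU3 F q) (subspaceStabilizer W ⊓ SU3 F q) := by
  refine ⟨lt_of_le_not_ge inf_le_right fun e => not_irr_of_le h1 h2 (e.trans inf_le_left) (irr_su le_rfl),
    fun M hM hM' => or_iff_not_imp_left.2 fun e => le_antisymm hM' fun g hg => ?_⟩
  obtain ⟨s, rfl⟩ := range_suToGL.ge hg
  by_contra hs
  refine e (le_antisymm (le_inf (le_subspaceStabilizer fun g hg v hv => by_contra fun hc => hs ?_) hM') hM)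
  obtain ⟨t, rfl⟩ := range_suToGL.ge (hM' hg)
  exact (U.eq_top_of_tv_mem (Or.inr hq) fun w _ => h (M.comap (suToGL 3 F q))
    (fun s hs => hM ⟨mem_stab hs, suToGL_mem s⟩) t hg v hv hc w).ge (Subgroup.mem_top s)

theorem iso_prop {u w : Fin 3 → F} (hu : u ≠ 0) (h1 : hermForm 3 F q u u = 0) (h2 : hermForm 3 F q w w = 0)
    (h3 : hermForm 3 F q w u = 0) : ∃ c : F, w = c • u := by
  by_cases h : w ⨯₃ u = 0
  · exact H98.D3.exists_smul_of_cross h hu
  have e : ∀ x y : Fin 3 → F, hermForm 3 F q x y = 0 → (fun i => U.cj q (y i)) ⬝ᵥ x = 0 := fun x y h => by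
    rw [dotProduct_comm]; exact (U.form_def x y).symm.trans h
  obtain ⟨c, hc⟩ := H98.D3.exists_smul_of_dots h (e _ _ h3) (e _ _ h1)
    (fun h0 => hu (funext fun i => U.cj_eq_zero.1 (congrFun h0 i))) (e _ _ h2) (e _ _ (U.form_eq_zero_symm h3))
  exact ⟨U.cj q c, funext fun i => by simpa [U.cj_cj] using congrArg (U.cj q) (congrFun hc i)⟩

theorem max_iso (hq : q ≠ 2) {W : Submodule F (Fin 3 → F)} (h1 : W ≠ ⊥)
    (hW : IsTotallySingularFor (hermForm 3 F q) W) : IsMaximalIn (SU3 F q) (subspaceStabilizer W ⊓ SU3 F q) := by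
  refine max_tv hq h1 (by
    rintro rfl
    simpa [U.form_single_single] using hW (Pi.single 0 1) trivial (Pi.single 0 1) trivial)
    fun N hN g hg v hv hgv w hw c hc => ?_
  have h0 : ∀ w ∈ W, U.tv q w c ∈ N := fun w hw => hN _ fun x hx => by
    rw [U.tv_mulVec (hW _ hw _ hw) hc]
    exact W.add_mem hx (W.smul_mem _ hw)
  by_cases hwW : w ∈ W
  · exact h0 w hwW
  have hv0 : v ≠ 0 := by rintro rfl; simp at hgv
  have hvv := hW _ hv _ hv
  have key : ∀ x, hermForm 3 F q x x = 0 → x ∉ W → hermForm 3 F q x v ≠ 0 := fun x hx hx' e => by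
    obtain ⟨a, rfl⟩ := iso_prop hv0 hvv hx e
    exact hx' (W.smul_mem _ hv)
  have h2 := key _ ((U.su_form g v v).trans hvv) hgv
  set a := hermForm 3 F q w v / hermForm 3 F q (g.1.1 *ᵥ v) v
  obtain ⟨s, e1, e2⟩ := U.exists_su_pair le_rfl (key w hw hwW) hvv (v := g.1.1 *ᵥ (a • v))
    (by rw [U.su_form]; exact hW _ (W.smul_mem _ hv) _ (W.smul_mem _ hv)) hvv hw
    (by rw [mulVec_smul, U.form_smul_left, div_mul_cancel₀ _ h2]) rfl
  have hs : s ∈ N := hN s fun x hx => by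
    obtain ⟨b, rfl⟩ := iso_prop hv0 hvv (hW _ hx _ hx) (hW _ hx _ hv)
    rwa [mulVec_smul, e1]
  rw [← e2, ← U.conj_tv, ← U.conj_tv]
  exact mul_mem (mul_mem hs (mul_mem (mul_mem hg (h0 _ (W.smul_mem _ hv))) (inv_mem hg))) (inv_mem hs)

theorem max_nd (hq : q ≠ 2) {W : Submodule F (Fin 3 → F)} (h1 : W ≠ ⊥)
    (hW : IsNondegenerateOn (hermForm 3 F q) W) (hd : 2 * Module.finrank F W < 3) :
    IsMaximalIn (SU3 F q) (subspaceStabilizer W ⊓ SU3 F q) := by
  refine max_tv hq h1 (by rintro rfl; simp at hd) fun N hN g hg e he hge w hw c hc => ?_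
  have he0 : e ≠ 0 := by rintro rfl; simp at hge
  have hsp : ∀ x ∈ W, ∃ a : F, a • e = x := fun x hx => Submodule.mem_span_singleton.1 (by
    rwa [Submodule.eq_of_le_of_finrank_le ((Submodule.span_singleton_le_iff_mem _ _).2 he)
      (by rw [finrank_span_singleton he0]; omega)])
  have hee : hermForm 3 F q e e ≠ 0 := by
    obtain ⟨x, hx, h⟩ := (hW e he he0).1
    obtain ⟨a, rfl⟩ := hsp x hx
    exact fun h0 => h (by rw [U.form_smul_left, h0, mul_zero])
  have hN' : ∀ s : SU 3 F q, s.1.1 *ᵥ e = e → s ∈ N := fun s hs => hN s fun x hx => by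
    obtain ⟨a, rfl⟩ := hsp x hx
    rwa [mulVec_smul, hs]
  have h0 : ∀ w, hermForm 3 F q w w = 0 → hermForm 3 F q w e = 0 → U.tv q w c ∈ N := fun w h h' =>
    hN' _ (by rw [U.tv_mulVec h hc, U.form_eq_zero_symm h', mul_zero, zero_smul, add_zero])
  by_cases hwe : hermForm 3 F q w e = 0
  · exact h0 w hw hwe
  have hP := (U.nondeg_top (q := q)).perp trivial hee
  have d1 := U.finrank_le_perp (q := q) (⊤ : Submodule F (Fin 3 → F)) e
  rw [U.finrank_top'] at d1
  have proj : ∀ x, x - (hermForm 3 F q x e / hermForm 3 F q e e) • e ∈ U.perp q ⊤ e := fun x =>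
    U.mem_perp.2 ⟨trivial, by rw [U.form_sub_left, U.form_smul_left, div_mul_cancel₀ _ hee, sub_self]⟩
  obtain ⟨y, hy, hy0, hy1⟩ : ∃ y, hermForm 3 F q y e = 0 ∧ hermForm 3 F q y y = 0 ∧
      hermForm 3 F q ((g⁻¹).1.1 *ᵥ y) e ≠ 0 := by
    obtain ⟨y, hy, h⟩ := hP _ (proj (g.1.1 *ᵥ e)) fun h => hge (sub_eq_zero.1 h ▸ W.smul_mem _ he)
    rw [U.form_sub_left, U.form_smul_left, U.form_eq_zero_symm (U.mem_perp.1 hy).2, mul_zero, sub_zero,
      U.su_form_left] at h
    obtain ⟨y₁, m1, y₂, m2, i1, i2, rfl⟩ := hP.exists_add_isotropic (by omega) hy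
    by_contra hc
    push Not at hc
    exact h (by rw [mulVec_add, U.form_add_right, U.form_eq_zero_symm (hc _ (U.mem_perp.1 m1).2 i1),
      U.form_eq_zero_symm (hc _ (U.mem_perp.1 m2).2 i2), add_zero])
  set a := hermForm 3 F q w e / hermForm 3 F q ((g⁻¹).1.1 *ᵥ y) e
  have ha : hermForm 3 F q (a • y) (a • y) = 0 := by rw [U.form_smul_left, U.form_smul_right, hy0, mul_zero, mul_zero]
  have hz : U.tv q ((g⁻¹).1.1 *ᵥ (a • y)) c ∈ N := by
    rw [← U.conj_tv]
    exact mul_mem (mul_mem (inv_mem hg) (h0 _ ha (by rw [U.form_smul_left, hy, mul_zero]))) (inv_mem (inv_mem hg))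
  have z1 := (U.su_form g⁻¹ _ _).trans ha
  have z2 : hermForm 3 F q ((g⁻¹).1.1 *ᵥ (a • y)) e = hermForm 3 F q w e := by
    rw [mulVec_smul, U.form_smul_left, div_mul_cancel₀ _ hy1]
  generalize (g⁻¹).1.1 *ᵥ (a • y) = z at hz z1 z2
  have p1 := proj z
  rw [z2] at p1
  have nrm : ∀ x, hermForm 3 F q x x = 0 → hermForm 3 F q x e = hermForm 3 F q w e →
      hermForm 3 F q (x - (hermForm 3 F q w e / hermForm 3 F q e e) • e)
        (x - (hermForm 3 F q w e / hermForm 3 F q e e) • e) =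
        -(hermForm 3 F q w e * hermForm 3 F q e w / hermForm 3 F q e e) := fun x i1 i2 => by
    simp only [U.form_sub_left, U.form_sub_right, U.form_smul_left, U.form_smul_right, i1, i2, map_div₀, U.cj_form,
      U.form_swap e x]
    field_simp
    ring
  have n0 := neg_ne_zero.2 (div_ne_zero (mul_ne_zero hwe (U.form_ne_zero_symm hwe)) hee)
  obtain ⟨r, r1, r2⟩ := U.exists_gu_mulVec p1 (proj w) ((nrm z z1 z2).trans (nrm w hw rfl).symm)
    (by rwa [nrm z z1 z2])
  replace r2 := r2 e fun x hx => U.form_eq_zero_symm (U.mem_perp.1 hx).2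
  have d2 := U.finrank_le_perp (q := q) (U.perp q ⊤ e) (w - (hermForm 3 F q w e / hermForm 3 F q e e) • e)
  obtain ⟨t, ht, ht0⟩ := (hP.perp (proj w) (by rwa [nrm w hw rfl])).exists_nonisotropic (by omega)
  obtain ⟨s, hs⟩ := U.exists_su_of_gu r ht0
  have s1 := (hs e (by rw [r2]; exact U.form_eq_zero_symm (U.mem_perp.1 (U.mem_perp.1 ht).1).2)).trans r2
  have s2 := (hs _ (by rw [r1]; exact U.form_eq_zero_symm (U.mem_perp.1 ht).2)).trans r1
  rw [mulVec_sub, mulVec_smul, s1, sub_left_inj] at s2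
  rw [← s2, ← U.conj_tv]
  exact mul_mem (mul_mem (hN' s s1) hz) (inv_mem (hN' s s1))

end H11.T3
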